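import Cfsg.Agent.Char.Misc
import Cfsg.Agent.Char.Central

/-! Cuspidal characters of `GL_n(q)`, part A (helper7): class functions on pairs (space, endomorphism) (`CF`), the parabolic
induction product `mul`, the inner product `ip`, the adjoint `D` (`adj`), products of characters are characters (`IsCh.mul`). -/
set_option autoImplicit false
set_option linter.unusedSectionVars false
open Module Function Finset
open scoped ComplexConjugate BigOperators Classical

namespace Cfsg.Agent.Cusp
universe u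

theorem orb' {G X T : Type*} [Group G] [Fintype G] [Fintype X] [Fintype T] (act : G → X → X) (h1 : ∀ x, act 1 x = x)
    (hm : ∀ g h x, act (g * h) x = act g (act h x)) (Φ : X → G → ℂ) (hΦ : ∀ g x h, Φ (act g x) (g * h * g⁻¹) = Φ x h) (x0 : X)
    (ho : ∀ x, ∑ h, Φ x h ≠ 0 → ∃ g, act g x0 = x) (β : T → G) (hβ : Injective β) (hr : ∀ g, act g x0 = x0 ↔ ∃ t, β t = g)
    (hs : ∀ h, Φ x0 h ≠ 0 → act h x0 = x0) : 𝔼 h, ∑ x, Φ x h = 𝔼 t, Φ x0 (β t) := by
  letI : SMul G X := ⟨act⟩
  letI : MulAction G X := { one_smul := h1, mul_smul := hm }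
  have e1 : ∑ h, ∑ x, Φ x h = Nat.card (MulAction.orbit G x0) * ∑ h, Φ x0 h := by
    rw [sum_comm, Nat.card_eq_fintype_card, Fintype.card_subtype, ← nsmul_eq_mul, ← sum_const, sum_filter]
    refine sum_congr rfl fun x _ => ?_
    split_ifs with h
    · obtain ⟨g, rfl⟩ := h
      exact (Fintype.sum_equiv (MulAut.conj g).toEquiv _ _ fun h => (hΦ g x0 h).symm).symm
    · exact by_contra fun n => h (ho x n)
  have e2 : ∑ h, Φ x0 h = ∑ t, Φ x0 (β t) :=
    (sum_of_injOn β hβ.injOn (fun _ _ => mem_univ _) (fun g _ n => by_contra fun m => n (by simpa using (hr g).1 (hs g m)))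
      fun _ _ => rfl).symm
  have e3 : Nat.card (MulAction.stabilizer G x0) = Fintype.card T := by
    rw [← Nat.card_eq_fintype_card]
    exact (Nat.card_congr (Equiv.ofBijective (fun t => ⟨β t, (hr _).2 ⟨t, rfl⟩⟩)
      ⟨fun a b e => hβ (congrArg Subtype.val e), fun g => ((hr g).1 g.2).imp fun t e => Subtype.ext e⟩)).symm
  have e4 := Nat.card_congr (MulAction.orbitProdStabilizerEquivGroup G x0)
  rw [Nat.card_prod, e3, Nat.card_eq_fintype_card (α := G)] at e4
  have e5 : (Fintype.card G : ℂ) ≠ 0 := Nat.cast_ne_zero.2 Fintype.card_ne_zero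
  rw [Fintype.expect_eq_sum_div_card, Fintype.expect_eq_sum_div_card, e1, e2]
  rw [← e4, Nat.cast_mul] at e5 ⊢
  rw [mul_div_mul_left _ _ (left_ne_zero_of_mul e5)]

theorem orb {G X T : Type*} [Group G] [Fintype G] [Fintype X] [Fintype T] (act : G → X → X) (h1 : ∀ x, act 1 x = x)
    (hm : ∀ g h x, act (g * h) x = act g (act h x)) (Φ : X → G → ℂ) (hΦ : ∀ g x h, Φ (act g x) (g * h * g⁻¹) = Φ x h) (x0 : X)
    (ho : ∀ x h, Φ x h ≠ 0 → ∃ g, act g x0 = x) (β : T → G) (hβ : Injective β) (hr : ∀ g, act g x0 = x0 ↔ ∃ t, β t = g)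
    (hs : ∀ h, Φ x0 h ≠ 0 → act h x0 = x0) : 𝔼 h, ∑ x, Φ x h = 𝔼 t, Φ x0 (β t) :=
  orb' act h1 hm Φ hΦ x0 (fun x n => (exists_ne_zero_of_sum_ne_zero n).elim fun h k => ho x h k.2) β hβ hr hs

/-- class functions on all general linear groups at once -/
structure CF (F : Type u) [Field F] where
  val : ∀ (V : Type u) [AddCommGroup V] [Module F V] [Finite V], End F V → ℂ
  inv : ∀ {V W : Type u} [AddCommGroup V] [Module F V] [Finite V] [AddCommGroup W] [Module F W] [Finite W] (e : V ≃ₗ[F] W)
    {x : End F V} {y : End F W}, (∀ v, e (x v) = y (e v)) → val V x = val W y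

variable {F : Type u} [Field F] [Fintype F] {V V' A B C : Type u} [AddCommGroup V] [Module F V] [Finite V]
  [AddCommGroup V'] [Module F V'] [Finite V'] [AddCommGroup A] [Module F A] [Finite A] [AddCommGroup B] [Module F B] [Finite B]
  [AddCommGroup C] [Module F C] [Finite C] (f g h : CF F)

noncomputable scoped instance fintypeHom : Fintype (A →ₗ[F] B) := 
  have : Finite (A →ₗ[F] B) := Finite.of_injective _ DFunLike.coe_injective; Fintype.ofFinite _
noncomputable scoped instance fintypeEnd : Fintype (End F A) := fintypeHom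
noncomputable scoped instance fintypeSub : Fintype (Submodule F A) := Fintype.ofFinite _
scoped instance finiteQuot (W : Submodule F V) : Finite (V ⧸ W) := Finite.of_surjective _ W.mkQ_surjective
scoped instance fd : FiniteDimensional F V := Module.Finite.of_finite

/-- the contribution of an invariant subspace -/
noncomputable def term (W : Submodule F V) (x : End F V) : ℂ :=
  if h : W ≤ W.comap x then f.val W (x.restrict h) * g.val (V ⧸ W) (W.mapQ W x h) else 0

theorem term_eq {W : Submodule F V} {x : End F V} (i : A →ₗ[F] V) (p : V →ₗ[F] B) (hi : Injective i) (hp : Surjective p)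
    (hr : LinearMap.range i = W) (hk : LinearMap.ker p = W) {a : End F A} {b : End F B} (ha : ∀ v, i (a v) = x (i v))
    (hb : ∀ v, p (x v) = b (p v)) : term f g W x = f.val A a * g.val B b := by
  subst hr
  have h : LinearMap.range i ≤ (LinearMap.range i).comap x := by rintro _ ⟨v, rfl⟩; exact ⟨_, ha v⟩
  rw [term, dif_pos h, ← f.inv (LinearEquiv.ofInjective i hi) (x := a) (y := x.restrict h) fun v => Subtype.ext (ha v),
    g.inv ((Submodule.quotEquivOfEq _ _ hk.symm).trans (p.quotKerEquivOfSurjective hp)) (y := b) fun v => ?_]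
  obtain ⟨v, rfl⟩ := Submodule.mkQ_surjective _ v
  exact hb v

theorem term_inv {W : Submodule F V} {x : End F V} (n : term f g W x ≠ 0) : W ≤ W.comap x :=
  by_contra fun h => n (dif_neg h)

theorem term_map (e : V ≃ₗ[F] V') {x : End F V} {y : End F V'} (H : ∀ v, e (x v) = y (e v)) (W : Submodule F V) :
    term f g (W.map e.toLinearMap) y = term f g W x := by
  by_cases h : W ≤ W.comap x
  · rw [term_eq f g (e.toLinearMap ∘ₗ W.subtype) (W.mkQ ∘ₗ e.symm.toLinearMap) (e.injective.comp W.subtype_injective)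
      (W.mkQ_surjective.comp e.symm.surjective) (by rw [LinearMap.range_comp, Submodule.range_subtype])
      (by rw [LinearMap.ker_comp, Submodule.ker_mkQ, Submodule.map_equiv_eq_comap_symm]) (a := x.restrict h)
      (b := W.mapQ W x h) (fun v => H v) fun v => ?_, term, dif_pos h]
    obtain ⟨v, rfl⟩ := e.surjective v
    simp [← H]
  · rw [term, term, dif_neg h, dif_neg fun k => h fun v hv => ?_]
    obtain ⟨w, hw, e1⟩ := k ⟨v, hv, rfl⟩
    have : w = x v := e.injective (e1.trans (H v).symm)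
    exact Submodule.mem_comap.2 (this ▸ hw)

/-- parabolic induction -/
noncomputable def mul : CF F where
  val V _ _ _ x := ∑ W, term f g W x
  inv e _ _ H := Fintype.sum_equiv (Submodule.orderIsoMapComap e).toEquiv _ _ fun W => (term_map f g e H W).symm

variable (V) in
/-- the inner product on `GL(V)` -/
noncomputable def ip : ℂ := 𝔼 x : (End F V)ˣ, f.val V x * conj (g.val V x)

theorem ip_eq (H : finrank F V = finrank F V') : ip V f g = ip V' f g := by
  let e := LinearEquiv.ofFinrankEq V V' H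
  refine Fintype.expect_equiv (Units.mapEquiv e.conjRingEquiv.toMulEquiv).toEquiv _ _ fun x => ?_
  rw [f.inv e (y := e.conj x) fun v => by simp, g.inv e (y := e.conj x) fun v => by simp]; rfl

theorem ip_conj : conj (ip V f g) = ip V g f := by
  simp only [ip, map_expect, map_mul, Complex.conj_conj, mul_comm]

theorem ip_eq_classInner : ip V f g = classInner (fun x : (End F V)ˣ => f.val V x) fun x => g.val V x := by
  rw [ip, Fintype.expect_eq_sum_div_card, classInner, Nat.card_eq_fintype_card, div_eq_inv_mul]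

/-- block triangular endomorphisms -/
def blk (x : End F A) (c : B →ₗ[F] A) (y : End F B) : End F (A × B) := (x.coprod c).prod (y ∘ₗ LinearMap.snd F A B)

@[simp] theorem blk_apply (x : End F A) (c : B →ₗ[F] A) (y : End F B) (v : A × B) : blk x c y v = (x v.1 + c v.2, y v.2) := rfl

@[simp] theorem u_inv (z : (End F V)ˣ) (v : V) : z.1 (z⁻¹.1 v) = v := by rw [← End.mul_apply, Units.mul_inv]; rfl
@[simp] theorem inv_u (z : (End F V)ˣ) (v : V) : z⁻¹.1 (z.1 v) = v := by rw [← End.mul_apply, Units.inv_mul]; rfl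

/-- block triangular automorphisms -/
def blkU (x : (End F A)ˣ) (c : B →ₗ[F] A) (y : (End F B)ˣ) : (End F (A × B))ˣ where
  val := blk x c y
  inv := blk x⁻¹.1 (-(x⁻¹.1 ∘ₗ c ∘ₗ y⁻¹.1)) y⁻¹.1
  val_inv := LinearMap.ext fun v => by simp
  inv_val := LinearMap.ext fun v => by simp

theorem blk_inj {x x' : End F A} {c c' : B →ₗ[F] A} {y y' : End F B} (e : blk x c y = blk x' c' y') : x = x' ∧ c = c' ∧ y = y' :=
  ⟨LinearMap.ext fun v => by simpa using LinearMap.congr_fun e (v, 0),
    LinearMap.ext fun v => by simpa using congrArg Prod.fst (LinearMap.congr_fun e (0, v)),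
    LinearMap.ext fun v => congrArg Prod.snd (LinearMap.congr_fun e (0, v))⟩

theorem unit_inj (z : (End F V)ˣ) : Injective z.1 := LinearMap.ker_eq_bot.1 ((LinearMap.isUnit_iff_ker_eq_bot _).1 z.isUnit)
theorem unit_surj (z : (End F V)ˣ) : Surjective z.1 := LinearMap.range_eq_top.1 ((LinearMap.isUnit_iff_range_eq_top _).1 z.isUnit)

theorem exists_blkU (z : (End F (A × B))ˣ) (H : ∀ a, (z.1 (a, 0)).2 = 0) : ∃ x c y, blkU x c y = z := by
  have k : ∀ v, z.1 v = ((z.1 (v.1, 0)).1 + (z.1 (0, v.2)).1, (z.1 (0, v.2)).2) := fun v => by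
    conv_lhs => rw [show v = (v.1, 0) + (0, v.2) by simp, map_add]
    exact Prod.ext rfl (by simp [H])
  obtain ⟨x, hx⟩ := (LinearMap.isUnit_iff_ker_eq_bot (LinearMap.fst F A B ∘ₗ z.1 ∘ₗ LinearMap.inl F A B)).2
    (LinearMap.ker_eq_bot'.2 fun a e => congrArg Prod.fst
      (unit_inj z (a₁ := (a, 0)) (a₂ := 0) ((Prod.ext e (H a)).trans (map_zero _).symm)))
  obtain ⟨y, hy⟩ := (LinearMap.isUnit_iff_range_eq_top (LinearMap.snd F A B ∘ₗ z.1 ∘ₗ LinearMap.inr F A B)).2
    (LinearMap.range_eq_top.2 fun b => by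
      obtain ⟨v, e⟩ := unit_surj z (0, b)
      exact ⟨v.2, (congrArg Prod.snd (e.symm.trans (k v))).symm⟩)
  refine ⟨x, LinearMap.fst F A B ∘ₗ z.1 ∘ₗ LinearMap.inr F A B, y, Units.ext (LinearMap.ext fun v => ?_)⟩
  rw [k]; change (x.1 _ + _, y.1 _) = _; rw [hx, hy]; rfl

theorem term_blk (x : End F A) (c : B →ₗ[F] A) (y : End F B) :
    term f g (LinearMap.range (LinearMap.inl F A B)) (blk x c y) = f.val A x * g.val B y :=
  term_eq f g (LinearMap.inl F A B) (LinearMap.snd F A B) LinearMap.inl_injective LinearMap.snd_surjective rfl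
    (LinearMap.ker_snd ..) (fun v => by simp) fun _ => rfl

theorem exists_ext (j : A →ₗ[F] V) (hj : Injective j) (H : finrank F (A × B) = finrank F V) :
    ∃ e : (A × B) ≃ₗ[F] V, ∀ a, e (a, 0) = j a := by
  obtain ⟨W, hW⟩ := (LinearMap.range j).exists_isCompl
  have := Submodule.finrank_add_eq_of_isCompl hW
  rw [LinearMap.finrank_range_of_inj hj] at this
  rw [finrank_prod] at H
  exact ⟨((LinearEquiv.ofInjective j hj).prodCongr (LinearEquiv.ofFinrankEq B W (by omega))).trans
    (Submodule.prodEquivOfIsCompl _ _ hW), fun a => by simp⟩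

/-- units from equivalences -/
def toU (e : V ≃ₗ[F] V) : (End F V)ˣ := (LinearMap.GeneralLinearGroup.generalLinearEquiv F V).symm e

/-- equivalences from units -/
def ofU (z : (End F V)ˣ) : V ≃ₗ[F] V := LinearMap.GeneralLinearGroup.generalLinearEquiv F V z

theorem ofU_conj (z x : (End F V)ˣ) (v : V) : ofU z (x.1 v) = (z * x * z⁻¹).1 (ofU z v) := by
  change z.1 _ = z.1 (x.1 (z⁻¹.1 (z.1 v))); rw [inv_u]

theorem term_conj (z : (End F V)ˣ) (W : Submodule F V) (x : (End F V)ˣ) :
    term f g (W.map z.1) (z * x * z⁻¹).1 = term f g W x.1 :=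
  term_map f g (ofU z) (ofU_conj z x) W

theorem map_eq_of_le (z : (End F V)ˣ) {W : Submodule F V} (H : W ≤ W.comap z.1) : W.map z.1 = W :=
  Submodule.eq_of_le_of_finrank_eq (Submodule.map_le_iff_le_comap.2 H) ((ofU z).finrank_map_eq W)

/-- homogeneous of degree `a` -/
def Hom (a : ℕ) : Prop := ∀ (V : Type u) [AddCommGroup V] [Module F V] [Finite V] (x : End F V), f.val V x ≠ 0 → finrank F V = a

theorem term_rank {a : ℕ} (hf : Hom f a) {W : Submodule F V} {x : End F V} (n : term f g W x ≠ 0) : finrank F W = a := by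
  rw [term, dif_pos (term_inv f g n)] at n
  exact hf _ _ (left_ne_zero_of_mul n)

theorem trans_blk {W : Submodule F (A × B)} (H : finrank F W = finrank F A) :
    ∃ z : (End F (A × B))ˣ, (LinearMap.range (LinearMap.inl F A B)).map z.1 = W := by
  let e := LinearEquiv.ofFinrankEq A W H.symm
  obtain ⟨z, hz⟩ := exists_ext (B := B) (W.subtype ∘ₗ e.toLinearMap) (W.subtype_injective.comp e.injective) rfl
  refine ⟨toU z, ?_⟩
  rw [← LinearMap.range_comp, show (toU z).1 ∘ₗ LinearMap.inl F A B = _ from LinearMap.ext hz, LinearMap.range_comp,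
    e.range, Submodule.map_top, Submodule.range_subtype]

theorem orb_blk (Φ : Submodule F (A × B) → (End F (A × B))ˣ → ℂ) (hΦ : ∀ z W x, Φ (W.map z.1) (z * x * z⁻¹) = Φ W x)
    (hr : ∀ W x, Φ W x ≠ 0 → finrank F W = finrank F A ∧ W ≤ W.comap x.1) :
    𝔼 x, ∑ W, Φ W x = 𝔼 y, 𝔼 x, 𝔼 c, Φ (LinearMap.range (LinearMap.inl F A B)) (blkU x c y) := by
  rw [orb (fun (z : (End F (A × B))ˣ) W => W.map z.1) Submodule.map_id (fun _ _ _ => Submodule.map_comp ..) Φ hΦ
    (LinearMap.range (LinearMap.inl F A B)) ?_ (fun t : (End F B)ˣ × (End F A)ˣ × (B →ₗ[F] A) => blkU t.2.1 t.2.2 t.1) ?_ ?_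
    fun x n => map_eq_of_le x (hr _ _ n).2]
  · simp only [← univ_product_univ, expect_product]
  · exact fun W x n => trans_blk (hr _ _ n).1
  · intro s t e
    obtain ⟨e1, e2, e3⟩ := blk_inj (congrArg Units.val e)
    exact Prod.ext (Units.ext e3) (Prod.ext (Units.ext e1) e2)
  · refine fun z => ⟨fun e => ?_, ?_⟩
    · obtain ⟨x, c, y, k⟩ := exists_blkU z fun a => by
        obtain ⟨b, hb⟩ := e.le ⟨_, ⟨a, rfl⟩, rfl⟩
        exact (congrArg Prod.snd hb).symm
      exact ⟨(y, x, c), k⟩
    · rintro ⟨t, rfl⟩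
      exact map_eq_of_le _ (by rintro _ ⟨a, rfl⟩; exact ⟨t.2.1.1 a, by simp [blkU]⟩)

variable (A) in
/-- the adjoint of multiplication by `f` -/
noncomputable def D : CF F where
  val B _ _ _ y := 𝔼 x : (End F A)ˣ, 𝔼 c : B →ₗ[F] A, conj (f.val A x) * h.val (A × B) (blk x c y)
  inv e _ _ H := expect_congr rfl fun x _ => Fintype.expect_equiv (e.arrowCongr (LinearEquiv.refl F A)).toEquiv _ _ fun c => by
    rw [h.inv ((LinearEquiv.refl F A).prodCongr e) fun v => ?_]
    simp [H]

theorem adj (hf : Hom f (finrank F A)) : ip (A × B) (mul f g) h = ip B g (D A f h) := by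
  simp only [ip, mul, sum_mul]
  rw [orb_blk (fun W x => term f g W x.1 * conj (h.val (A × B) x.1)) (fun z W x => by
    rw [term_conj, h.inv (ofU z) (ofU_conj z x)])
    fun W x n => ⟨term_rank f g hf (left_ne_zero_of_mul n), term_inv f g (left_ne_zero_of_mul n)⟩]
  simp only [D, blkU, term_blk, map_expect, mul_expect, map_mul, Complex.conj_conj]
  simp only [mul_assoc, mul_left_comm]

theorem mul_eq_zero {a : ℕ} (hf : Hom f a) (H : finrank F V < a) (x : End F V) : (mul f g).val V x = 0 :=
  sum_eq_zero fun W _ => by_contra fun n => by have := term_rank f g hf n; have := W.finrank_le; omega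

theorem Hom.mul {f g : CF F} {a b : ℕ} (hf : Hom f a) (hg : Hom g b) : Hom (mul f g) (a + b) := fun V _ _ _ x n => by
  obtain ⟨W, -, n⟩ := exists_ne_zero_of_sum_ne_zero n
  rw [term, dif_pos (term_inv f g n)] at n
  rw [← hf _ _ (left_ne_zero_of_mul n), ← hg _ _ (right_ne_zero_of_mul n), add_comm, Submodule.finrank_quotient_add_finrank]

theorem isClass : IsClassFunction (End F V)ˣ fun x => f.val V x := fun x z =>
  (f.inv (ofU z) (ofU_conj z x)).symm

/-- `f` is a character of every `GL(V)` -/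
def IsCh : Prop := ∀ (V : Type u) [AddCommGroup V] [Module F V] [Finite V], IsCharacter (End F V)ˣ fun x => f.val V x

theorem ch_of_eq (H : finrank F V = finrank F V') (hf : IsCharacter (End F V')ˣ fun x => f.val V' x) :
    IsCharacter (End F V)ˣ fun x => f.val V x := by
  let e := LinearEquiv.ofFinrankEq V V' H
  have := Char.IsCharacter.comp hf (Units.mapEquiv e.conjRingEquiv.toMulEquiv).toMonoidHom
  exact (funext fun x => f.inv e (y := e.conj x) fun v => by simp : (fun x : (End F V)ˣ => f.val V x) = _) ▸ this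

/-- the standard space -/
abbrev S (F : Type u) (n : ℕ) : Type u := Fin n → F

theorem rk_prod {a : ℕ} (H : a ≤ finrank F V) : finrank F V = finrank F (S F a × S F (finrank F V - a)) := by
  simp only [finrank_prod, finrank_fin_fun]; omega

theorem IsCh.mul {f g : CF F} {a : ℕ} (ha : Hom f a) (hf : IsCh f) (hg : IsCh g) : IsCh (mul f g) := fun V _ _ _ => by
  rcases lt_or_ge (finrank F V) a with H | H
  · simp only [mul_eq_zero f g ha H]; exact Char.isCharacter_zero
  refine ch_of_eq _ (rk_prod H) ?_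
  generalize finrank F V - a = b
  refine Char.IsClassFunction.isCharacter_of_forall_nat (isClass _) fun χ hχ => ?_
  let W := LinearMap.range (LinearMap.inl F (S F a) (S F b))
  let P : Subgroup (End F (S F a × S F b))ˣ :=
    { carrier := {z | W.map z.1 = W}
      one_mem' := Submodule.map_id _
      mul_mem' := fun {x y} hx hy => (Submodule.map_comp ..).trans ((congrArg _ hy).trans hx)
      inv_mem' := fun {x} hx => ((congrArg _ hx).symm.trans (Submodule.map_comp ..).symm).trans
        ((congrArg (fun t : End F _ => W.map t) x.inv_mul).trans (Submodule.map_id _)) }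
  have hP : ∀ z : P, W ≤ W.comap z.1.1 := fun z => Submodule.map_le_iff_le_comap.1 (le_of_eq z.2)
  let r1 : P →* End F W := ⟨⟨fun z => z.1.1.restrict (hP z), rfl⟩, fun _ _ => rfl⟩
  let r2 : P →* End F (_ ⧸ W) := ⟨⟨fun z => W.mapQ W z.1.1 (hP z), by ext <;> simp⟩, fun _ _ => by ext <;> simp⟩
  obtain ⟨n, hn⟩ := Char.IsCharacter.exists_nat_classInner (((hf _).comp r1.toHomUnits).mul ((hg _).comp r2.toHomUnits))
    ((Char.IsIrrCharacter.isCharacter hχ).restrict P)
  refine ⟨n, ?_⟩
  rw [← hn, classInner, classInner, Nat.card_eq_fintype_card, Nat.card_eq_fintype_card, ← div_eq_inv_mul, ← div_eq_inv_mul,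
    ← Fintype.expect_eq_sum_div_card, ← Fintype.expect_eq_sum_div_card]
  simp only [Cusp.mul, sum_mul]
  rw [orb (fun (z : (End F (S F a × S F b))ˣ) W => W.map z.1) Submodule.map_id (fun _ _ _ => Submodule.map_comp ..)
    (fun W x => term f g W x.1 * conj (χ x)) (fun z W x => by rw [term_conj, Char.IsIrrCharacter.isClassFunction hχ]) W
    (fun W x n => trans_blk ((term_rank f g ha (left_ne_zero_of_mul n)).trans (finrank_fin_fun F).symm))
    (Subtype.val : P → _) Subtype.val_injective (fun z => ⟨fun e => ⟨⟨z, e⟩, rfl⟩, by rintro ⟨t, rfl⟩; exact t.2⟩)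
    fun x n => map_eq_of_le x (term_inv f g (left_ne_zero_of_mul n))]
  exact expect_congr rfl fun z _ => by rw [term, dif_pos (hP z)]; rfl

end Cfsg.Agent.Cusp
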