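import Cfsg.Agent.Cusp.A

/-! Cuspidal characters of `GL_n(q)`, part B (helper7): strongly cuspidal class functions `SC`, the Heisenberg relation `heis`
(Mackey formula for cuspidal factors). -/
set_option autoImplicit false
set_option linter.unusedSectionVars false
open Module Function Finset
open scoped ComplexConjugate BigOperators Classical

namespace Cfsg.Agent.Cusp
universe u

variable {F : Type u} [Field F] [Fintype F] {V V' A B C : Type u} [AddCommGroup V] [Module F V] [Finite V]
  [AddCommGroup V'] [Module F V'] [Finite V'] [AddCommGroup A] [Module F A] [Finite A] [AddCommGroup B] [Module F B] [Finite B]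
  [AddCommGroup C] [Module F C] [Finite C] {f g h k : CF F}

/-- Lie algebra of the unipotent radical of the stabilizer of `W` -/
def Nil (W : Submodule F V) : Submodule F (End F V) where
  carrier := {t | (∀ v, t v ∈ W) ∧ ∀ v ∈ W, t v = 0}
  zero_mem' := ⟨fun _ => W.zero_mem, fun _ _ => rfl⟩
  add_mem' ha hb := ⟨fun v => W.add_mem (ha.1 v) (hb.1 v), fun v hv => by simp [ha.2 v hv, hb.2 v hv]⟩
  smul_mem' c _ ha := ⟨fun v => W.smul_mem c (ha.1 v), fun v hv => by simp [ha.2 v hv]⟩

/-- unipotent elements of square-zero type -/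
def uni (t : End F V) (H : ∀ v, t (t v) = 0) : (End F V)ˣ where
  val := 1 + t
  inv := 1 - t
  val_inv := LinearMap.ext fun v => by simp [H]
  inv_val := LinearMap.ext fun v => by simp [H]

/-- strongly cuspidal -/
def SC (f : CF F) : Prop := ∀ (V : Type u) [AddCommGroup V] [Module F V] [Finite V] (W : Submodule F V), W ≠ ⊥ → W ≠ ⊤ →
  ∀ x : End F V, IsUnit x → ∑ t : Nil W, f.val V (x * (1 + t.1)) = 0

theorem exists_ginv (p : A →ₗ[F] B) : ∃ r : B →ₗ[F] A, ∀ a, p (r (p a)) = p a := by
  obtain ⟨s, hs⟩ := p.rangeRestrict.exists_rightInverse_of_surjective (LinearMap.range_eq_top.2 p.surjective_rangeRestrict)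
  obtain ⟨r, hr⟩ := LinearMap.exists_extend s
  exact ⟨r, fun a => (congrArg p (LinearMap.congr_fun hr ⟨_, a, rfl⟩)).trans (congrArg Subtype.val (LinearMap.congr_fun hs ⟨_, a, rfl⟩))⟩

theorem avg_zero {G T : Type*} [Group G] [Fintype G] [Fintype T] [Nonempty T] (u : T → G) (Φ : G → ℂ)
    (H : ∀ x, ∑ t, Φ (x * u t) = 0) : ∑ x, Φ x = 0 := by
  have : ∑ _t : T, ∑ x, Φ x = 0 := by
    rw [sum_congr rfl fun t _ => (Fintype.sum_equiv (Equiv.mulRight (u t)) (fun x => Φ (x * u t)) Φ fun _ => rfl).symm, sum_comm]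
    exact sum_eq_zero fun x _ => H x
  simpa using this

theorem van (hf : SC f) {W W' : Submodule F V} (h0 : ¬ Disjoint W W') (h1 : ¬ W ≤ W') :
    ∑ x : (End F V)ˣ, term f h W x.1 * conj (term g k W' x.1) = 0 := by
  obtain ⟨r, hr⟩ := exists_ginv (W'.mkQ ∘ₗ W.subtype)
  let W0 := W'.comap W.subtype
  let l : Nil W0 → End F V := fun t => W.subtype ∘ₗ t.1 ∘ₗ r ∘ₗ W'.mkQ
  have l1 : ∀ t v, l t v ∈ W := fun t v => (t.1 _).2
  have l2 : ∀ t v, l t v ∈ W' := fun t v => t.2.1 _
  have l3 : ∀ t, ∀ v ∈ W', l t v = 0 := fun t v hv => by simp [l, (Submodule.Quotient.mk_eq_zero W').2 hv]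
  have l4 : ∀ t (v : W), l t v = t.1 v := fun t v => congrArg Subtype.val (sub_eq_zero.1 ((map_sub ..).symm.trans
    (t.2.2 _ ((Submodule.Quotient.eq W').1 (hr v)))))
  refine avg_zero (fun t => uni (l t) fun v => l3 t _ (l2 t v)) _ fun x => ?_
  by_cases hx : W ≤ W.comap x.1 ∧ W' ≤ W'.comap x.1
  · have e1 : ∀ t, term f h W (x.1 * (1 + l t)) = f.val W (x.1.restrict hx.1 * (1 + t.1)) * h.val _ (W.mapQ W x.1 hx.1) :=
      fun t => term_eq f h W.subtype W.mkQ W.subtype_injective W.mkQ_surjective W.range_subtype W.ker_mkQ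
        (fun v => by simp [l4]) fun v => by simpa using hx.1 (l1 t v)
    have e2 : ∀ t, term g k W' (x.1 * (1 + l t)) = g.val W' (x.1.restrict hx.2) * k.val _ (W'.mapQ W' x.1 hx.2) :=
      fun t => term_eq g k W'.subtype W'.mkQ W'.subtype_injective W'.mkQ_surjective W'.range_subtype W'.ker_mkQ
        (fun v => by simp [l3 t _ v.2]) fun v => by simpa using hx.2 (l2 t v)
    simp only [Units.val_mul, uni, e1, e2, ← sum_mul]
    rw [hf W W0 (fun e => h0 (Submodule.disjoint_iff_comap_eq_bot.2 e)) (fun e => h1 (Submodule.comap_subtype_eq_top.1 e)) _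
      ((LinearMap.isUnit_iff_ker_eq_bot _).2 (LinearMap.ker_eq_bot.2 fun a b e => Subtype.ext (unit_inj x (congrArg Subtype.val e)))),
      zero_mul, zero_mul]
  · refine sum_eq_zero fun t _ => by_contra fun n => hx ⟨fun v hv => ?_, fun v hv => ?_⟩
    · simpa [uni, l3 t _ (l2 t v)] using term_inv f h (left_ne_zero_of_mul n) (W.sub_mem hv (l1 t v))
    · simpa [uni, l3 t _ hv] using term_inv g k ((map_ne_zero _).1 (right_ne_zero_of_mul n)) hv

theorem diag (hf : Hom f (finrank F A)) :
    𝔼 x : (End F (A × B))ˣ, ∑ W, term f h W x.1 * conj (term g k W x.1) = ip A f g * ip B h k := by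
  rw [orb_blk (A := A) (B := B) (fun W x => term f h W x.1 * conj (term g k W x.1)) (fun z W x => by rw [term_conj, term_conj])
    fun W x n => ⟨term_rank f h hf (left_ne_zero_of_mul n), term_inv f h (left_ne_zero_of_mul n)⟩]
  simp only [ip, blkU, term_blk, expect_const univ_nonempty, expect_mul, mul_expect, map_mul]
  simp only [mul_assoc, mul_left_comm]

theorem disj (hf : Hom f (finrank F A)) (hg : Hom g (finrank F B)) :
    𝔼 x : (End F (A × B × C))ˣ, ∑ p : Submodule F _ × Submodule F _,
      (if Disjoint p.1 p.2 then term f h p.1 x.1 * conj (term g k p.2 x.1) else 0) = ip C (D B g h) (D A f k) := by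
  let j := LinearMap.inr F A (B × C) ∘ₗ LinearMap.inl F B C
  have hj : Injective j := LinearMap.inr_injective.comp LinearMap.inl_injective
  have hd : Disjoint (LinearMap.range (LinearMap.inl F A (B × C))) (LinearMap.range j) := by
    rw [Submodule.disjoint_def]
    rintro _ ⟨a, rfl⟩ ⟨b, e⟩
    exact Prod.ext (congrArg Prod.fst e).symm rfl
  rw [orb (fun (z : (End F (A × B × C))ˣ) (p : Submodule F _ × Submodule F _) => (p.1.map z.1, p.2.map z.1))
    (fun p => Prod.ext (Submodule.map_id _) (Submodule.map_id _)) (fun _ _ _ => Prod.ext (Submodule.map_comp ..) (Submodule.map_comp ..))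
    (fun p x => if Disjoint p.1 p.2 then term f h p.1 x.1 * conj (term g k p.2 x.1) else 0) ?_
    (LinearMap.range (LinearMap.inl F A (B × C)), LinearMap.range j) ?_
    (fun t : (End F C)ˣ × ((End F A)ˣ × (C →ₗ[F] A)) × (End F B)ˣ × (C →ₗ[F] B) =>
      blkU t.2.1.1 (t.2.1.2 ∘ₗ LinearMap.snd F B C) (blkU t.2.2.1 t.2.2.2 t.1)) ?_ ?_ ?_]
  · have e : ∀ (x : End F A) (y : End F B) (z : End F C) c d, term g k (LinearMap.range j) (blk x (c ∘ₗ LinearMap.snd F B C) (blk y d z)) =
        g.val B y * k.val (A × C) (blk x c z) := fun x y z c d =>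
      term_eq g k j (LinearMap.id.prodMap (LinearMap.snd F B C)) hj (fun v => ⟨(v.1, 0, v.2), rfl⟩) rfl
        (by ext ⟨a, b, c⟩; simp [j, Prod.ext_iff, eq_comm]) (fun v => by simp [j]) fun v => by simp
    simp only [hd, if_true, ← univ_product_univ, expect_product, blkU, term_blk, e, ip, D, map_expect, expect_mul, mul_expect,
      map_mul, Complex.conj_conj]
    simp only [mul_assoc, mul_left_comm, mul_comm]
  · intro z p x
    simp only [term_conj]
    exact if_congr (disjoint_map_orderIso_iff (f := Submodule.orderIsoMapComap (ofU z))) rfl rfl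
  · rintro ⟨W, W'⟩ x n
    have d : Disjoint W W' := by_contra fun d => n (if_neg d)
    rw [if_pos d] at n
    let a := W.subtype ∘ₗ (LinearEquiv.ofFinrankEq A W (term_rank f h hf (left_ne_zero_of_mul n)).symm).toLinearMap
    let b := W'.subtype ∘ₗ (LinearEquiv.ofFinrankEq B W' (term_rank g k hg ((map_ne_zero _).1 (right_ne_zero_of_mul n))).symm).toLinearMap
    have ra : LinearMap.range a = W := by rw [LinearMap.range_comp, LinearEquiv.range, Submodule.map_top, Submodule.range_subtype]
    have rb : LinearMap.range b = W' := by rw [LinearMap.range_comp, LinearEquiv.range, Submodule.map_top, Submodule.range_subtype]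
    obtain ⟨e, he⟩ := exists_ext (B := C) (a.coprod b) (by
      rw [← LinearMap.ker_eq_bot, LinearMap.ker_coprod_of_disjoint_range _ _ (by rwa [ra, rb]),
        (LinearMap.ker_eq_bot (f := a)).2 (W.subtype_injective.comp (LinearEquiv.injective _)),
        (LinearMap.ker_eq_bot (f := b)).2 (W'.subtype_injective.comp (LinearEquiv.injective _)), Submodule.prod_bot])
      (LinearEquiv.prodAssoc F A B C).finrank_eq
    refine ⟨toU ((LinearEquiv.prodAssoc F A B C).symm.trans e), Prod.ext ?_ ?_⟩
    · exact ((LinearMap.range_comp ..).symm.trans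
        (congrArg LinearMap.range (LinearMap.ext fun v => (he (v, 0)).trans (by simp)))).trans ra
    · exact ((LinearMap.range_comp ..).symm.trans
        (congrArg LinearMap.range (LinearMap.ext fun v => (he (0, v)).trans (by simp)))).trans rb
  · intro s t e
    obtain ⟨e1, e2, e3⟩ := blk_inj (congrArg Units.val e)
    obtain ⟨e4, e5, e6⟩ := blk_inj e3
    exact Prod.ext (Units.ext e6) (Prod.ext (Prod.ext (Units.ext e1)
      (LinearMap.ext fun v => LinearMap.congr_fun e2 (0, v))) (Prod.ext (Units.ext e4) e5))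
  · refine fun z => ⟨fun e => ?_, ?_⟩
    · obtain ⟨x, c, y, rfl⟩ := exists_blkU z fun a => by
        obtain ⟨b, hb⟩ := (congrArg Prod.fst e).le ⟨_, ⟨a, rfl⟩, rfl⟩
        exact (congrArg Prod.snd hb).symm
      have H := fun b => (congrArg Prod.snd e).le ⟨_, ⟨b, rfl⟩, rfl⟩
      obtain ⟨y, d, z, rfl⟩ := exists_blkU y fun b => by
        obtain ⟨b, hb⟩ := H b
        exact (congrArg (·.2.2) hb).symm
      refine ⟨(z, (x, c ∘ₗ LinearMap.inr F B C), y, d), congrArg (blkU x · _) (LinearMap.ext fun v => ?_)⟩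
      obtain ⟨b, hb⟩ := H v.1
      conv_rhs => rw [show v = (v.1, 0) + (0, v.2) by simp, map_add]
      simpa [j, blkU] using (congrArg Prod.fst hb).symm
    · rintro ⟨t, rfl⟩
      exact Prod.ext (map_eq_of_le _ (by rintro _ ⟨a, rfl⟩; exact ⟨t.2.1.1.1 a, by simp [blkU, Prod.ext_iff]⟩))
        (map_eq_of_le _ (by rintro _ ⟨a, rfl⟩; exact ⟨t.2.2.1.1 a, by simp [blkU, j]⟩))
  · intro x n
    rw [if_pos hd] at n
    exact Prod.ext (map_eq_of_le x (term_inv f h (left_ne_zero_of_mul n)))
      (map_eq_of_le x (term_inv g k ((map_ne_zero _).1 (right_ne_zero_of_mul n))))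

theorem heis {b : ℕ} (hf : Hom f (finrank F A)) (hg : Hom g b) (sf : SC f) (sg : SC g) (h0 : 0 < finrank F A) :
    ip V h (D A f (mul g k)) = ip A f g * ip V h k + ip V h (mul g (D A f k)) := by
  have key : ∀ (V : Type u) [AddCommGroup V] [Module F V] [Finite V], ip V h (D A f (mul g k)) = ip A f g * ip V h k +
      𝔼 x : (End F (A × V))ˣ, ∑ p : Submodule F _ × Submodule F _,
        (if Disjoint p.1 p.2 then term f h p.1 x.1 * conj (term g k p.2 x.1) else 0) := fun V _ _ _ => by
    rw [← adj f h _ hf, ← diag hf, ← expect_add_distrib, ip]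
    simp only [mul, map_sum, sum_mul_sum, Fintype.sum_prod_type, ← sum_add_distrib, expect_sum_comm]
    refine sum_congr rfl fun W _ => ?_
    rw [expect_add_distrib, expect_sum_comm, ← Fintype.sum_ite_eq W fun W' => 𝔼 x : (End F (A × V))ˣ,
      term f h W x.1 * conj (term g k W' x.1), ← sum_add_distrib]
    refine sum_congr rfl fun W' _ => ?_
    split_ifs with e d d
    · subst e
      have : ∀ x, term f h W x = 0 := fun x => by_contra fun n => by
        have := term_rank f h hf n
        rw [disjoint_self.1 d, finrank_bot] at this; omega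
      simp [this]
    · simp
    · simp
    · rw [expect_const univ_nonempty, add_zero, Fintype.expect_eq_sum_div_card, div_eq_zero_iff]
      by_cases l : W ≤ W'
      · have := congrArg conj (van (h := k) (g := f) (k := h) sg (fun d' => d d'.symm) fun l' => e (le_antisymm l l'))
        simp only [map_sum, map_mul, Complex.conj_conj, map_zero] at this
        exact .inl (by simpa only [mul_comm] using this)
      · exact .inl (van sf d l)
  rcases lt_or_ge (finrank F V) b with H | H
  · rw [key]
    simp only [ip, mul_eq_zero g _ hg H, map_zero, mul_zero, expect_const_zero, add_zero, add_eq_left]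
    refine expect_eq_zero fun x _ => sum_eq_zero fun p _ => ite_eq_right_iff.2 fun d => by_contra fun n => ?_
    have e1 := term_rank f h hf (left_ne_zero_of_mul n)
    have e2 := term_rank g k hg ((map_ne_zero _).1 (right_ne_zero_of_mul n))
    have e3 := Submodule.finrank_add_finrank_le_of_disjoint d
    rw [finrank_prod] at e3; omega
  · have hg' : Hom g (finrank F (S F b)) := by rwa [finrank_fin_fun]
    rw [ip_eq _ _ (rk_prod H), ip_eq h k (rk_prod H), ip_eq h _ (rk_prod H), key, disj hf hg', ← ip_conj (mul g _) h, adj g _ _ hg', ip_conj]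

end Cfsg.Agent.Cusp
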