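import Cfsg.Agent.Cusp.B

/-! Cuspidal characters of `GL_n(q)`, part C (helper7): cuspidal characters `Cu`, products `R l` of lists of cuspidals, disjointness
of Harish-Chandra series (`ip_R`), every irreducible character lies in a series (`exists_series`). -/
set_option autoImplicit false
set_option linter.unusedSectionVars false
open Module Function Finset
open scoped ComplexConjugate BigOperators Classical

namespace Cfsg.Agent.Cusp
universe u

variable {F : Type u} [Field F] [Fintype F] {V V' A B C : Type u} [AddCommGroup V] [Module F V] [Finite V]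
  [AddCommGroup V'] [Module F V'] [Finite V'] [AddCommGroup A] [Module F A] [Finite A] [AddCommGroup B] [Module F B] [Finite B]
  [AddCommGroup C] [Module F C] [Finite C] {f g h k : CF F}

/-- the general linear group -/
abbrev GG (F : Type u) [Field F] (n : ℕ) : Type u := (End F (S F n))ˣ

/-- `x` is represented by `z` -/
def Rp {n : ℕ} (x : End F V) (z : GG F n) : Prop := ∃ e : V ≃ₗ[F] S F n, ∀ v, e (x v) = z.1 (e v)

theorem Rp.val {n : ℕ} {x : End F V} {z z' : GG F n} (χ : IrrCharacter (GG F n)) (h : Rp x z) (h' : Rp x z') : χ.1 z = χ.1 z' := by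
  obtain ⟨e, he⟩ := h
  obtain ⟨e', he'⟩ := h'
  rw [← Char.IsIrrCharacter.isClassFunction χ.2 z (toU (e.symm.trans e'))]
  refine congrArg _ (mul_inv_eq_of_eq_mul (Units.ext (LinearMap.ext fun v => ?_)))
  obtain ⟨v, rfl⟩ := e.surjective v
  change e' (e.symm (z.1 (e v))) = z'.1 (e' (e.symm (e v)))
  rw [← he, e.symm_apply_apply, e.symm_apply_apply, he']

/-- an irreducible character of `GL_n` as a `CF` -/
noncomputable def ofCh {n : ℕ} (χ : IrrCharacter (GG F n)) : CF F where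
  val V _ _ _ x := if h : Exists (Rp (n := n) x) then χ.1 h.choose else 0
  inv e x y H := by
    have k : ∀ z : GG F n, Rp x z ↔ Rp y z := fun z =>
      ⟨fun ⟨a, ha⟩ => ⟨e.symm.trans a, fun v => by obtain ⟨v, rfl⟩ := e.surjective v; simp [← H, ha]⟩,
        fun ⟨a, ha⟩ => ⟨e.trans a, fun v => by simp [H, ha]⟩⟩
    rw [show Rp x = Rp y from funext fun z => propext (k z)]

variable {n : ℕ}

theorem ofCh_val (χ : IrrCharacter (GG F n)) (z : GG F n) : (ofCh χ).val (S F n) z = χ.1 z :=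
  have h : Rp z.1 z := ⟨LinearEquiv.refl _ _, fun _ => rfl⟩
  (dif_pos ⟨z, h⟩).trans (Rp.val χ (Exists.choose_spec ⟨z, h⟩) h)

theorem ofCh_fun (χ : IrrCharacter (GG F n)) : (fun z : GG F n => (ofCh χ).val (S F n) z) = χ.1 := funext (ofCh_val χ)

theorem ofCh_hom (χ : IrrCharacter (GG F n)) : Hom (ofCh χ) n := fun V _ _ _ x h => by
  obtain ⟨z, e, -⟩ : ∃ z : GG F n, Rp x z := by_contra fun k => h (dif_neg k)
  rw [e.finrank_eq, finrank_fin_fun]

theorem ofCh_ch (χ : IrrCharacter (GG F n)) : IsCh (ofCh χ) := fun V _ _ _ => by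
  by_cases H : finrank F V = n
  · exact ch_of_eq _ (H.trans (finrank_fin_fun F).symm) (ofCh_fun χ ▸ Char.IsIrrCharacter.isCharacter χ.2)
  · rw [show (fun x : (End F V)ˣ => (ofCh χ).val V x) = 0 from funext fun x => by_contra fun k => H (ofCh_hom χ _ _ k)]
    exact Char.isCharacter_zero

theorem ip_ofCh (χ : IrrCharacter (GG F n)) : ip (S F n) f (ofCh χ) = classInner (fun z : GG F n => f.val _ z.1) χ.1 := by
  rw [ip_eq_classInner, ofCh_fun]

theorem ip_sum : ip (S F n) f g = ∑ χ : IrrCharacter (GG F n), ip (S F n) f (ofCh χ) * ip (S F n) (ofCh χ) g := by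
  rw [ip_eq_classInner, Char.IsClassFunction.classInner_eq_sum_irr (isClass f)]
  exact sum_congr rfl fun χ _ => by rw [← ip_conj g, ip_ofCh, ip_ofCh]

theorem val_sum (f : CF F) (z : GG F n) : f.val (S F n) z.1 = ∑ χ : IrrCharacter (GG F n), ip (S F n) f (ofCh χ) * χ.1 z :=
  (Char.IsClassFunction.apply_eq_sum_irr (isClass (V := S F n) f) z).trans (sum_congr rfl fun χ _ => by rw [ip_ofCh])

theorem IsCh.nat (hf : IsCh f) (hg : IsCh g) : ∃ m : ℕ, ip V f g = m :=
  by rw [ip_eq_classInner]; exact Char.IsCharacter.exists_nat_classInner (hf V) (hg V)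

variable (F) in
/-- cuspidal characters -/
def Cu : Type u := {p : Σ n, IrrCharacter (GG F n) // 0 < p.1 ∧ SC (ofCh p.2)}

/-- the rank -/
def Cu.d (ρ : Cu F) : ℕ := ρ.1.1
/-- the class function -/
noncomputable def Cu.cf (ρ : Cu F) : CF F := ofCh ρ.1.2

theorem Cu.hom (ρ : Cu F) : Hom ρ.cf ρ.d := ofCh_hom _
theorem Cu.hom' (ρ : Cu F) : Hom ρ.cf (finrank F (S F ρ.d)) := by rw [finrank_fin_fun]; exact ρ.hom

theorem Cu.ip_eq (ρ σ : Cu F) : ip (S F ρ.d) ρ.cf σ.cf = if σ = ρ then 1 else 0 := by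
  obtain ⟨⟨a, ρ⟩, hρ⟩ := ρ
  obtain ⟨⟨b, σ⟩, hσ⟩ := σ
  by_cases e : a = b
  · subst e
    refine (ip_ofCh σ).trans ((congrArg (classInner · _) (ofCh_fun ρ)).trans ((Char.IsIrrCharacter.classInner_eq_ite ρ.2 σ.2).trans ?_))
    refine if_congr ⟨fun e => ?_, fun e => ?_⟩ rfl rfl
    · obtain rfl : ρ = σ := Subtype.ext e
      rfl
    · rw [show σ = ρ from eq_of_heq (Sigma.mk.inj (congrArg Subtype.val e)).2]
  · rw [if_neg fun k => e (congrArg Cu.d k : b = a).symm]
    exact expect_eq_zero fun x _ => mul_eq_zero_of_right _ ((_root_.map_eq_zero _).2 (by_contra fun k =>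
      e ((finrank_fin_fun F).symm.trans (ofCh_hom σ _ _ k))))

variable (F) in
/-- constants on the zero space -/
noncomputable def cst (c : ℂ) : CF F where
  val V _ _ _ _ := if finrank F V = 0 then c else 0
  inv e _ _ _ := by rw [e.finrank_eq]

/-- the product of a list of cuspidal characters -/
noncomputable def R : List (Cu F) → CF F
  | [] => cst F 1
  | ρ :: l => mul ρ.cf (R l)

theorem R_ch : ∀ l : List (Cu F), IsCh (R l)
  | [] => fun V _ _ _ => by
    simp only [R, cst]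
    split_ifs
    exacts [Char.isCharacter_one, Char.isCharacter_zero]
  | ρ :: l => IsCh.mul ρ.hom (ofCh_ch _) (R_ch l)

/-- the lists obtained by deleting one occurence -/
noncomputable def del (ρ : Cu F) : List (Cu F) → List (List (Cu F))
  | [] => []
  | σ :: l => (if σ = ρ then [l] else []) ++ (del ρ l).map (σ :: ·)

theorem del_perm (ρ : Cu F) : ∀ l, ∀ c ∈ del ρ l, (ρ :: c).Perm l
  | [], _, h => nomatch h
  | σ :: l, c, h => by
    rcases List.mem_append.1 h with h | h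
    · split_ifs at h with e
      · rw [List.mem_singleton.1 h, e]
      · exact nomatch h
    · obtain ⟨c, hc, rfl⟩ := List.mem_map.1 h
      exact (List.Perm.swap ..).trans ((del_perm ρ l c hc).cons σ)

theorem del_length (ρ : Cu F) : ∀ l, (del ρ l).length = l.count ρ
  | [] => rfl
  | σ :: l => by
    rw [del, List.length_append, List.length_map, del_length ρ l, List.count_cons, add_comm]
    split_ifs <;> simp_all

theorem adj2 {b : ℕ} (hg : Hom g b) : ∃ (m : ℕ) (h' : CF F), ∀ k, ip V h (mul g k) = ip (S F m) h' k := by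
  rcases lt_or_ge (finrank F V) b with H | H
  · exact ⟨0, cst F 0, fun k => by simp [ip, mul_eq_zero g _ hg H, cst]⟩
  · exact ⟨_, D (S F b) g h, fun k => by rw [ip_eq _ _ (rk_prod H), ← ip_conj, adj g _ _ (by rwa [finrank_fin_fun]), ip_conj]⟩

theorem ip_del (ρ : Cu F) : ∀ (l : List (Cu F)) (V : Type u) [AddCommGroup V] [Module F V] [Finite V] (h : CF F),
    ip V h (D (S F ρ.d) ρ.cf (R l)) = ((del ρ l).map fun c => ip V h (R c)).sum
  | [], V, _, _, _, h => by
    have : ρ.d ≠ 0 := ρ.2.1.ne'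
    simp [ip, D, R, cst, del, this]
  | σ :: l, V, _, _, _, h => by
    obtain ⟨m, h', e⟩ := adj2 (V := V) (h := h) σ.hom
    rw [R, heis ρ.hom' σ.hom ρ.2.2 σ.2.2 (by rw [finrank_fin_fun]; exact ρ.2.1), e, ip_del ρ l, del, List.map_append,
      List.sum_append, List.map_map, Cu.ip_eq]
    simp only [Function.comp_def, R, e]
    split_ifs <;> simp

/-- the norm of `R l` -/
noncomputable def nrm : List (Cu F) → ℕ
  | [] => 1
  | ρ :: l => (l.count ρ + 1) * nrm l

/-- the total rank -/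
def dg (l : List (Cu F)) : ℕ := (l.map Cu.d).sum

theorem ip_R : ∀ (l m : List (Cu F)) (n : ℕ), ip (S F n) (R l) (R m) = if n = dg l ∧ l.Perm m then (nrm l : ℂ) else 0
  | [], [], n => by by_cases h : n = 0 <;> simp [ip, R, cst, dg, nrm, h]
  | [], σ :: m, n => by
    rw [if_neg (by simp)]
    refine expect_eq_zero fun x _ => ?_
    by_cases h : n = 0
    · rw [R, R, mul_eq_zero _ _ σ.hom (by rw [finrank_fin_fun, h]; exact σ.2.1), map_zero, mul_zero]
    · simp [R, cst, h]
  | ρ :: l, m, n => by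
    have e0 : dg (ρ :: l) = ρ.d + dg l := rfl
    rcases lt_or_ge n ρ.d with H | H
    · rw [if_neg (by omega)]
      exact expect_eq_zero fun x _ => by rw [R, mul_eq_zero _ _ ρ.hom (by rwa [finrank_fin_fun]), zero_mul]
    rw [ip_eq (V' := S F ρ.d × S F (n - ρ.d)) _ _ (by simp only [finrank_prod, finrank_fin_fun]; omega), R, adj _ _ _ ρ.hom', ip_del,
      List.map_congr_left (g := fun _ => if n = dg (ρ :: l) ∧ (ρ :: l).Perm m then (nrm l : ℂ) else 0) fun c hc => by
        rw [ip_R l c]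
        exact if_congr (and_congr (by omega) ⟨fun p => (p.cons ρ).trans (del_perm ρ m c hc),
          fun p => (p.trans (del_perm ρ m c hc).symm).cons_inv⟩) rfl rfl,
      List.map_const', List.sum_replicate, del_length]
    split_ifs with e
    · rw [← e.2.count_eq, List.count_cons_self, nrm, nsmul_eq_mul, Nat.cast_mul]
    · simp

theorem R_perm {l m : List (Cu F)} (p : l.Perm m) (z : GG F n) : (R l).val _ z.1 = (R m).val _ z.1 := by
  have e : dg l = dg m := (p.map _).sum_eq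
  refine sub_eq_zero.1 (congrFun ((Char.classInner_self_eq_zero ((fun z : GG F n => (R l).val _ z.1) -
    fun z => (R m).val _ z.1)).1 ?_) z)
  simp only [Char.classInner_sub_left, Char.classInner_sub_right, ← ip_eq_classInner, ip_R, p, p.symm, List.Perm.refl, sub_self]

theorem proj_zero {G T : Type*} [Group G] [AddCommGroup T] [Fintype T] (u : T → G) (hu : ∀ s t, u (s + t) = u s * u t)
    {χ : G → ℂ} (hχ : IsCharacter G χ) (H : ∑ t, χ (u t) = 0) (x : G) : ∑ t, χ (x * u t) = 0 := by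
  obtain ⟨m, ρ, rfl⟩ := hχ
  have c : (Fintype.card T : ℂ) ≠ 0 := Nat.cast_ne_zero.2 Fintype.card_ne_zero
  have e : IsIdempotentElem ((Fintype.card T : ℂ)⁻¹ • ∑ t, ρ (u t)) := by
    rw [IsIdempotentElem, smul_mul_smul_comm, sum_mul_sum, sum_congr rfl fun s _ => (Fintype.sum_equiv (Equiv.addLeft s) _
      (fun t => ρ (u t)) fun t => by rw [← map_mul, ← hu]; rfl), sum_const, card_univ, ← Nat.cast_smul_eq_nsmul ℂ, smul_smul,
      inv_mul_cancel_right₀ c]
  have := LinearMap.IsIdempotentElem.eq_zero_of_trace_eq_zero e (by rw [map_smul, map_sum]; exact smul_eq_zero_of_right _ H)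
  rw [smul_eq_zero_iff_right (inv_ne_zero c)] at this
  simp only [Representation.character, map_mul, ← map_sum, ← mul_sum, this, mul_zero, map_zero]

theorem nil_sum (e : V ≃ₗ[F] V') (W : Submodule F V) {x : End F V} {y : End F V'} (H : ∀ v, e (x v) = y (e v)) :
    ∑ t : Nil W, f.val V (x * (1 + t.1)) = ∑ t : Nil (W.map e.toLinearMap), f.val V' (y * (1 + t.1)) :=
  Fintype.sum_equiv (e.conj.toEquiv.subtypeEquiv fun t => ⟨fun h => ⟨fun v => ⟨_, h.1 _, rfl⟩, by
    rintro _ ⟨v, hv, rfl⟩; simp [h.2 v hv]⟩, fun h => ⟨fun v => by simpa using h.1 (e v), fun v hv => by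
      simpa using h.2 _ ⟨v, hv, rfl⟩⟩⟩) _ _ fun t => f.inv e fun v => by simp [H]

/-- unipotent elements -/
def nu {W : Submodule F V} (t : Nil W) : (End F V)ˣ := uni t.1 fun v => t.2.2 _ (t.2.1 v)

theorem nu_add {W : Submodule F V} (s t : Nil W) : nu (s + t) = nu s * nu t :=
  Units.ext (LinearMap.ext fun v => by simp [nu, uni, s.2.2 _ (t.2.1 v), add_assoc, add_comm])

theorem sc_of {a : ℕ} (ρ : IrrCharacter (GG F a)) {φ : GG F a → ℂ} (hφ : IsClassFunction _ φ) (h0 : classInner φ ρ.1 ≠ 0)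
    (H : ∀ W : Submodule F (S F a), W ≠ ⊥ → W ≠ ⊤ → ∀ x, ∑ t : Nil W, φ (x * nu t) = 0) : SC (ofCh ρ) := by
  intro V _ _ _ W h1 h2 x hx
  by_cases d : finrank F V = a
  swap; · exact sum_eq_zero fun t _ => by_contra fun k => d (ofCh_hom ρ _ _ k)
  let e := LinearEquiv.ofFinrankEq V (S F a) (d.trans (finrank_fin_fun F).symm)
  obtain ⟨y, hy⟩ := hx.map e.conjRingEquiv
  rw [nil_sum e W (y := y.1) fun v => by simp [hy]]
  have h3 := H (W.map e.toLinearMap) (fun k => h1 ((Submodule.orderIsoMapComap e).injective (k.trans (map_bot _).symm)))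
    fun k => h2 ((Submodule.orderIsoMapComap e).injective (k.trans (map_top _).symm))
  have hρ := Char.IsIrrCharacter.isCharacter ρ.2
  have h4 := fun z => Char.IsIrrCharacter.sum_mul_apply_mul ρ.2 (f := fun g => φ g⁻¹) (fun g k => by
    simpa [mul_assoc] using hφ g⁻¹ k) z
  have h5 : ∑ g, φ g⁻¹ * ρ.1 g ≠ 0 := by
    rw [← Fintype.sum_equiv (Equiv.inv _) (fun g => φ g * conj (ρ.1 g)) _ fun g => by simp [hρ.apply_inv], ← Char.card_mul_classInner]
    exact mul_ne_zero Char.natCard_cast_ne_zero h0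
  have h6 : ∑ t : Nil (W.map e.toLinearMap), ∑ g, φ g⁻¹ * ρ.1 (g * (y * nu t)) = 0 := by
    rw [sum_congr rfl fun t _ => (Fintype.sum_equiv (Equiv.mulLeft (nu t)) _ (fun g => φ (g⁻¹ * nu t) * ρ.1 (g * y)) fun g => by
      rw [← mul_assoc, Char.IsClassFunction.apply_mul_comm hρ.isClassFunction]; simp [mul_assoc]), sum_comm]
    exact sum_eq_zero fun g _ => by rw [← sum_mul, h3, zero_mul]
  simp only [h4, ← sum_div, ← mul_sum, div_eq_zero_iff, Char.IsIrrCharacter.apply_one_ne_zero ρ.2, _root_.mul_eq_zero, h5, false_or,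
    or_false] at h6
  exact (sum_congr rfl fun t _ => ofCh_val ρ (y * nu t)).trans h6

theorem blk_zero (hf : IsCh f) {W0 : Submodule F A} (k : ∑ t : Nil (W0.map (LinearMap.inl F A B)), f.val (A × B) (1 + t.1) = 0)
    (x : (End F A)ˣ) : ∑ t : Nil W0, ∑ c : B →ₗ[F] A, f.val _ (blk (x * nu t).1 c 1) = 0 := by
  replace k := proj_zero (nu (W := W0.map (LinearMap.inl F A B))) nu_add (hf _) k
  rw [← Fintype.sum_prod_type']
  have : ∑ _s : Nil (W0.map (LinearMap.inl F A B)), ∑ p : Nil W0 × (B →ₗ[F] A), f.val _ (blk (x * nu p.1).1 p.2 1) = 0 := by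
    rw [← sum_eq_zero (s := univ) fun (p : Nil W0 × (B →ₗ[F] A)) _ => k (blkU (x * nu p.1) p.2 1), sum_comm (t := univ (α := Nil _))]
    refine sum_congr rfl fun s _ => ?_
    have s1 : ∀ v, (s.1 v).1 ∈ W0 ∧ (s.1 v).2 = 0 := fun v => by obtain ⟨w, hw, e⟩ := s.2.1 v; exact e ▸ ⟨hw, rfl⟩
    let t : Nil W0 := ⟨LinearMap.fst F _ _ ∘ₗ s.1 ∘ₗ LinearMap.inl F _ _, fun v => (s1 _).1,
      fun v hv => congrArg Prod.fst (s.2.2 _ ⟨v, hv, rfl⟩)⟩
    refine (Fintype.sum_equiv (Equiv.addRight (t, x.1 ∘ₗ LinearMap.fst F _ _ ∘ₗ s.1 ∘ₗ LinearMap.inr F _ _)) _ _ fun p => ?_).symm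
    refine congrArg _ (LinearMap.ext fun v => ?_)
    have : (s.1 v).1 = (s.1 (v.1, 0)).1 + (s.1 (0, v.2)).1 := by rw [← Prod.fst_add, ← map_add]; simp
    simp [blkU, nu, uni, t, (s1 _).2, p.1.2.2 _ (s1 _).1, this, add_assoc, add_left_comm, add_comm]
  simpa using this

theorem exists_irr (H : f.val (S F n) 1 ≠ 0) : ∃ π : IrrCharacter (GG F n), ip (S F n) f (ofCh π) ≠ 0 := by
  obtain ⟨π, hπ, h⟩ := Char.IsClassFunction.exists_irr_classInner_ne_zero (isClass (V := S F n) f) fun k => H (congrFun k 1)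
  exact ⟨⟨π, hπ⟩, (ip_ofCh ⟨π, hπ⟩).trans_ne h⟩

theorem exists_cu (χ : IrrCharacter (GG F n)) (hn : 0 < n) : ∃ ρ : Cu F, ρ.d ≤ n ∧ ∃ π : IrrCharacter (GG F (n - ρ.d)),
    ip (S F (n - ρ.d)) (D (S F ρ.d) ρ.cf (ofCh χ)) (ofCh π) ≠ 0 := by
  set f := ofCh χ
  have ex : ∃ a, 0 < a ∧ ∃ W : Submodule F (S F n), finrank F W = a ∧ ∑ t : Nil W, f.val _ (1 * (1 + t.1)) ≠ 0 := by
    refine ⟨n, hn, ⊤, by simp, ?_⟩
    rw [Fintype.sum_eq_single 0 fun t k => absurd (Subtype.ext (LinearMap.ext fun v => t.2.2 v trivial)) k]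
    simpa using (ofCh_val χ 1).trans_ne (Char.IsIrrCharacter.apply_one_ne_zero χ.2)
  obtain ⟨h0, W, hW, hs⟩ := Nat.find_spec ex
  have hm := fun b => Nat.find_min ex (m := b)
  generalize Nat.find ex = a at *
  have ha : a ≤ n := hW.ge.trans (W.finrank_le.trans (finrank_fin_fun F).le)
  let e0 := LinearEquiv.ofFinrankEq (S F a) W ((finrank_fin_fun F).trans hW.symm)
  obtain ⟨e, he⟩ := exists_ext (B := S F (n - a)) (W.subtype ∘ₗ e0.toLinearMap) (W.subtype_injective.comp e0.injective)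
    (by simp only [finrank_prod, finrank_fin_fun]; omega)
  let φ : GG F a → ℂ := fun x => 𝔼 c : S F (n - a) →ₗ[F] S F a, f.val _ (blk x.1 c 1)
  have hφ : IsClassFunction _ φ := fun x z => by
    refine (Fintype.expect_equiv ((LinearEquiv.refl F (S F (n - a))).arrowCongr (ofU z)).toEquiv _ _ fun c => ?_).symm
    refine f.inv ((ofU z).prodCongr (LinearEquiv.refl F _)) fun v => ?_
    simp [ofU_conj z x]
  have hW' : (LinearMap.range (LinearMap.inl F (S F a) (S F (n - a)))).map e.toLinearMap = W := by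
    rw [← LinearMap.range_comp, show e.toLinearMap ∘ₗ LinearMap.inl F _ _ = _ from LinearMap.ext he, LinearMap.range_comp,
      e0.range, Submodule.map_top, Submodule.range_subtype]
  have h1 : φ 1 ≠ 0 := by
    rw [← hW', ← nil_sum e _ (x := 1) fun _ => rfl, ← Fintype.sum_bijective
      (fun c : S F (n - a) →ₗ[F] S F a => (⟨blk 0 c 0, fun v => ⟨_, rfl⟩, by rintro _ ⟨v, rfl⟩; simp⟩ :
        Nil (LinearMap.range (LinearMap.inl F (S F a) (S F (n - a))))))
      ⟨fun c d k => (blk_inj (congrArg Subtype.val k)).2.1, fun t => ⟨LinearMap.fst F _ _ ∘ₗ t.1 ∘ₗ LinearMap.inr F _ _,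
        Subtype.ext (LinearMap.ext fun v => ?_)⟩⟩ (fun c => f.val _ (blk 1 c 1)) _
      fun c => congrArg _ (LinearMap.ext fun v => by simp [Prod.ext_iff])] at hs
    · simpa [φ, Fintype.expect_eq_sum_div_card] using hs
    · obtain ⟨w, hw⟩ := t.2.1 (0, v.2)
      conv_rhs => rw [show v = (v.1, 0) + (0, v.2) by simp, map_add, t.2.2 (v.1, 0) ⟨v.1, rfl⟩]
      simp [← hw]
  obtain ⟨ρ, hρ, h2⟩ := Char.IsClassFunction.exists_irr_classInner_ne_zero hφ fun k => h1 (congrFun k 1)
  refine ⟨⟨⟨a, ρ, hρ⟩, h0, sc_of _ hφ h2 fun W0 n0 n1 x => ?_⟩, ha, ?_⟩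
  · let W1 := W0.map (LinearMap.inl F (S F a) (S F (n - a)))
    have d1 : finrank F W1 = finrank F W0 := (Submodule.equivMapOfInjective _ LinearMap.inl_injective W0).finrank_eq.symm
    have k := hm _ ((Submodule.finrank_lt n1).trans_eq (finrank_fin_fun F))
    simp only [not_and, not_exists, not_not] at k
    replace k := k (Submodule.one_le_finrank_iff.2 n0) (W1.map e.toLinearMap) ((e.finrank_map_eq _).trans d1)
    rw [← nil_sum e _ (x := 1) fun _ => rfl] at k
    simp only [one_mul] at k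
    have := blk_zero (f := f) (ofCh_ch χ) k x
    rw [← expect_sum_comm, Fintype.expect_eq_sum_div_card, sum_comm, this, zero_div]
  · have h4 : (D (S F a) (ofCh ⟨ρ, hρ⟩) f).val (S F (n - a)) 1 = classInner φ ρ := by
      rw [classInner, Nat.card_eq_fintype_card, ← div_eq_inv_mul, ← Fintype.expect_eq_sum_div_card]
      refine expect_congr rfl fun x _ => ?_
      rw [expect_mul, ofCh_val]
      exact expect_congr rfl fun c _ => mul_comm _ _
    exact exists_irr (h4.trans_ne h2)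

theorem ne_zero_of_sum {ι : Type*} [Fintype ι] {a b : ι → ℂ} (ha : ∀ i, ∃ m : ℕ, a i = m) (hb : ∀ i, ∃ m : ℕ, b i = m) {i : ι}
    (h1 : a i ≠ 0) (h2 : b i ≠ 0) : ∑ i, a i * b i ≠ 0 := by
  choose a' ha using ha
  choose b' hb using hb
  simp only [ha, hb, ← Nat.cast_mul, ← Nat.cast_sum, Nat.cast_ne_zero, ne_eq, sum_eq_zero_iff] at *
  exact fun k => mul_ne_zero h1 h2 (k i (mem_univ _))

theorem exists_series : ∀ (n : ℕ) (χ : IrrCharacter (GG F n)), ∃ l, dg l = n ∧ ip (S F n) (R l) (ofCh χ) ≠ 0 := by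
  intro n
  induction n using Nat.strong_induction_on with | _ n ih => ?_
  intro χ
  rcases Nat.eq_zero_or_pos n with rfl | hn
  · refine ⟨[], rfl, ?_⟩
    have : ∀ x : GG F 0, x = 1 := fun x => Units.ext (LinearMap.ext fun v => Subsingleton.elim _ _)
    simp only [ip, R, cst, ofCh_val, this, expect_const univ_nonempty]
    simpa using Char.IsIrrCharacter.apply_one_ne_zero χ.2
  obtain ⟨ρ, hρ, π, h⟩ := exists_cu χ hn
  obtain ⟨l, hl, h'⟩ := ih _ (Nat.sub_lt hn ρ.2.1) π
  have e : finrank F (S F n) = finrank F (S F ρ.d × S F (n - ρ.d)) := by simp only [finrank_prod, finrank_fin_fun]; omega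
  refine ⟨ρ :: l, (congrArg (ρ.d + ·) hl).trans (Nat.add_sub_of_le hρ), ?_⟩
  rw [ip_eq _ _ e, R, adj _ _ _ ρ.hom', ip_sum]
  refine ne_zero_of_sum (fun _ => (R_ch l).nat (ofCh_ch _)) (fun σ => ?_) h' (by rwa [← ip_conj, map_ne_zero])
  rw [← adj _ _ _ ρ.hom']
  exact (IsCh.mul ρ.hom (ofCh_ch _) (ofCh_ch _)).nat (ofCh_ch _)

end Cfsg.Agent.Cusp
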