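import Cfsg.Agent.Cusp.C
import Mathlib.NumberTheory.LegendreSymbol.AddCharacter
import Mathlib.Analysis.RCLike.Basic

/-! Cuspidal characters of `GL_n(q)`, part D (helper7): the unitriangular group `UT`, the Whittaker functional `wh` (multiplicity
in the Gelfand–Graev character), its multiplicativity `wh_mul`, and the degree of a cuspidal class function `deg_sc`. -/
set_option autoImplicit false
set_option linter.unusedSectionVars false
open Module Function Finset Matrix
open scoped ComplexConjugate BigOperators Classical MatrixGroups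

namespace Cfsg.Agent.Cusp
universe u

variable {F : Type u} [Field F] [Fintype F] {f g : CF F} {n : ℕ} (ψ : AddChar F ℂ)

theorem avg_add {G T : Type*} [AddGroup G] [Fintype G] [Fintype T] [Nonempty T] (u : T → G) (Φ : G → ℂ)
    (H : ∀ x, ∑ t, Φ (x + u t) = 0) : ∑ x, Φ x = 0 := by
  have : ∑ _t : T, ∑ x, Φ x = 0 := by
    rw [sum_congr rfl fun t _ => (Fintype.sum_equiv (Equiv.addRight (u t)) (fun x => Φ (x + u t)) Φ fun _ => rfl).symm, sum_comm]
    exact sum_eq_zero fun x _ => H x
  simpa using this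

/-- the sum of the superdiagonal -/
def sd (M : Matrix (Fin n) (Fin n) F) : F := ∑ i, ∑ j, if i.val + 1 = j.val then M i j else 0

theorem sd_add (M N : Matrix (Fin n) (Fin n) F) : sd (M + N) = sd M + sd N := by
  simp only [sd, ← sum_add_distrib, Matrix.add_apply, ite_add_zero]

theorem sd_one : sd (1 : Matrix (Fin n) (Fin n) F) = 0 :=
  sum_eq_zero fun i _ => sum_eq_zero fun j _ => ite_eq_right_iff.2 fun e => one_apply_ne fun k => by subst k; omega

theorem sd_single {M : Matrix (Fin n) (Fin n) F} {a b : Fin n} (e : a.val + 1 = b.val)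
    (H : ∀ i j : Fin n, i.val + 1 = j.val → i ≠ a → M i j = 0) : sd M = M a b := by
  rw [sd, Fintype.sum_eq_single a fun i hi => sum_eq_zero fun j _ => ite_eq_right_iff.2 fun k => H i j k hi,
    Fintype.sum_eq_single b fun j hj => if_neg fun k => hj (Fin.ext (by omega)), if_pos e]

/-- unitriangular matrices -/
def IsU (M : Matrix (Fin n) (Fin n) F) : Prop := ∀ i j, j ≤ i → M i j = (1 : Matrix _ _ F) i j

theorem IsU.zero {M : Matrix (Fin n) (Fin n) F} (h : IsU M) {i j : Fin n} (l : j < i) : M i j = 0 :=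
  (h i j l.le).trans (one_apply_ne l.ne')

theorem IsU.one {M : Matrix (Fin n) (Fin n) F} (h : IsU M) (i : Fin n) : M i i = 1 := (h i i le_rfl).trans (one_apply_eq _)

variable (F n) in
/-- the unitriangular group -/
def UT : Subgroup (GL (Fin n) F) :=
  let M : Submonoid (GL (Fin n) F) :=
    { carrier := {g | IsU g.1}
      one_mem' := fun _ _ _ => rfl
      mul_mem' := fun {a b} (ha : IsU _) (hb : IsU _) i j l => by
        rw [Units.val_mul, mul_apply, Fintype.sum_eq_single i fun k hk => ?_, ha.one, one_mul, hb i j l]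
        rcases lt_or_gt_of_ne hk with h | h
        · rw [ha.zero h, zero_mul]
        · rw [hb.zero (l.trans_lt h), mul_zero] }
  { M with inv_mem' := fun {x} hx => Submonoid.powers_le.2 hx (mem_powers_iff_mem_zpowers.2 (inv_mem (Subgroup.mem_zpowers x))) }

/-- a unitriangular matrix as a group element -/
noncomputable def mkU (M : Matrix (Fin n) (Fin n) F) (h : IsU M) : UT F n :=
  ⟨GeneralLinearGroup.mkOfDetNeZero M (by rw [det_of_upperTriangular (M := M) fun i j l => h.zero l]; simp [h.one]), h⟩

theorem sd_mul {M N : Matrix (Fin n) (Fin n) F} (hM : IsU M) (hN : IsU N) : sd (M * N) = sd M + sd N := by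
  rw [← sd_add]
  refine sum_congr rfl fun i _ => sum_congr rfl fun j _ => ite_congr rfl (fun e => ?_) fun _ => rfl
  rw [mul_apply, Fintype.sum_eq_add i j (fun k => by subst k; omega) fun k hk => ?_, hM.one, hN.one, one_mul, mul_one, Matrix.add_apply, add_comm]
  rcases lt_or_gt_of_ne hk.1 with h | h
  · rw [hM.zero h, zero_mul]
  · rw [hN.zero (lt_of_le_of_ne (show j.val ≤ k.val by have : i.val < k.val := h; omega) hk.2.symm), mul_zero]

/-- the non-degenerate character -/
noncomputable def lam : UT F n →* ℂ where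
  toFun u := ψ (sd u.1.1)
  map_one' := (congrArg ψ sd_one).trans ψ.map_zero_eq_one
  map_mul' a b := by rw [← AddChar.map_add_eq_mul, ← sd_mul a.2 b.2]; rfl

theorem lam_ne (u : UT F n) : lam ψ u ≠ 0 := ((lam ψ).toHomUnits u).ne_zero

theorem lam_conj (u v : UT F n) : lam ψ (u * v * u⁻¹) = lam ψ v := by
  rw [map_mul, map_mul, mul_right_comm, ← map_mul, mul_inv_cancel, map_one, one_mul]

/-- matrices as linear maps -/
noncomputable def tl : GL (Fin n) F ≃* GG F n := GeneralLinearGroup.toLin

theorem tl_val (x : GL (Fin n) F) : (tl x).1 = toLin' x.1 := rfl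

variable (f n) in
/-- the multiplicity in the Gelfand–Graev character -/
noncomputable def wh : ℂ := 𝔼 u : UT F n, f.val (S F n) (tl u.1).1 * conj (lam ψ u)

variable (F n) in
/-- the standard flag -/
def VV (k : ℕ) : Submodule F (S F n) where
  carrier := {v | ∀ j : Fin n, k ≤ j.val → v j = 0}
  zero_mem' _ _ := rfl
  add_mem' ha hb j l := by simp [ha j l, hb j l]
  smul_mem' c _ ha j l := by simp [ha j l]

theorem rk_VV {k : ℕ} (H : k ≤ n) : finrank F (VV F n k) = k := by
  refine (LinearEquiv.ofBijective (LinearMap.funLeft F F (Fin.castLE H) ∘ₗ (VV F n k).subtype) ⟨fun a b e => ?_, fun v => ?_⟩).finrank_eq.trans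
    (finrank_fin_fun F)
  · ext j
    rcases lt_or_ge j.val k with l | l
    · exact congrFun e ⟨j, l⟩
    · rw [a.2 j l, b.2 j l]
  · exact ⟨⟨fun j => if h : j.val < k then v ⟨j, h⟩ else 0, fun j l => dif_neg l.not_gt⟩, funext fun j => dif_pos j.2⟩

theorem term_nil {V : Type u} [AddCommGroup V] [Module F V] [Finite V] {W : Submodule F V} (x : End F V) (t : Nil W) :
    term f g W (x * (1 + t.1)) = term f g W x := by
  by_cases h : W ≤ W.comap x
  · rw [term_eq f g W.subtype W.mkQ W.subtype_injective W.mkQ_surjective W.range_subtype W.ker_mkQ (a := x.restrict h)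
      (b := W.mapQ W x h) (fun v => by simp [t.2.2 _ v.2]) fun v => by simpa using h (t.2.1 v), term, dif_pos h]
  · rw [term, term, dif_neg h, dif_neg fun k => h fun v hv => by simpa [t.2.2 v hv] using k hv]

/-- `W` jumps at `i` -/
def Jp (W : Submodule F (S F n)) (i : Fin n) : Prop := ∃ w ∈ W, w ∈ VV F n (i + 1) ∧ w i ≠ 0

variable {ψ} (hψ : ψ.IsPrimitive)
include hψ in
theorem bad_zero {W : Submodule F (S F n)} {i j : Fin n} (e : i.val + 1 = j.val) (hi : Jp W i) (hj : ¬ Jp W j) :
    ∑ u : UT F n, term f g W (tl u.1).1 * conj (lam ψ u) = 0 := by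
  obtain ⟨w, hw, hw1, hw2⟩ := hi
  obtain ⟨l, l1, l2⟩ := Submodule.exists_le_ker_of_notMem (p := W ⊔ VV F n j) (v := Pi.single j 1) fun k => by
    obtain ⟨a, ha, b, hb, k⟩ := Submodule.mem_sup.1 k
    obtain rfl := eq_sub_of_add_eq k
    exact hj ⟨_, ha, fun c l => by simp [hb c (by omega), Pi.single_eq_of_ne (show c ≠ j by rintro rfl; omega)], by simp [hb j le_rfl]⟩
  have l3 : ∀ c : Fin n, c.val < j.val → l (Pi.single c 1) = 0 := fun c k =>
    l2 (Submodule.mem_sup_right fun d k' => Pi.single_eq_of_ne (by rintro rfl; omega) _)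
  let t : F → Nil W := fun s => ⟨l.smulRight (s • w), fun v => W.smul_mem _ (W.smul_mem _ hw), fun v hv => by
    simp [show l v = 0 from l2 (Submodule.mem_sup_left hv)]⟩
  have ht : ∀ s r c, LinearMap.toMatrix' (t s).1 r c = l (Pi.single c 1) * (s * w r) := fun s r c => by
    simp [t, LinearMap.toMatrix'_apply]
  have hU : ∀ s, IsU (1 + LinearMap.toMatrix' (t s).1) := fun s r c k => by
    rw [Matrix.add_apply, ht, add_eq_left]
    rcases lt_or_ge c.val j.val with h | h
    · rw [l3 c h, zero_mul]
    · rw [hw1 r (by have : c.val ≤ r.val := k; omega), mul_zero, mul_zero]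
  refine avg_zero (fun s => mkU _ (hU s)) _ fun x => ?_
  have e1 : ∀ s, (tl (x * mkU _ (hU s)).1).1 = (tl x.1).1 * (1 + (t s).1) := fun s => by
    rw [Subgroup.coe_mul, map_mul, Units.val_mul]
    exact congrArg _ ((map_add toLin' ..).trans (by rw [toLin'_one, toLin'_toMatrix']; rfl))
  have e2 : ∀ s, lam ψ (mkU _ (hU s)) = ψ (s * (w i * l (Pi.single j 1))) := fun s => by
    refine congrArg ψ ((sd_add ..).trans ?_)
    rw [sd_one, zero_add, sd_single e fun r c k k' => ?_, ht, mul_comm, mul_assoc]
    rw [ht]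
    rcases lt_or_gt_of_ne k' with h | h
    · rw [l3 c (by have : r.val < i.val := h; omega), zero_mul]
    · rw [hw1 r h, mul_zero, mul_zero]
  simp only [e1, term_nil, map_mul (lam ψ), e2]
  simp only [map_mul, ← mul_sum, ← map_sum, AddChar.sum_mulShift _ hψ, mul_ne_zero hw2 l1, if_false,
    Nat.cast_zero, map_zero, mul_zero]

theorem good_disj {W : Submodule F (S F n)} {k : ℕ} (hW : k + finrank F W = n)
    (H : ∀ i j : Fin n, i.val + 1 = j.val → Jp W i → Jp W j) : ∀ v ∈ W, v ∈ VV F n k → v = 0 := by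
  intro v hv hk
  by_contra n0
  obtain ⟨i, hi, hm⟩ := exists_max_image (univ.filter fun i => v i ≠ 0) id
    (by obtain ⟨i, hi⟩ := Function.ne_iff.1 n0; exact ⟨i, by simpa using hi⟩)
  simp only [mem_filter, mem_univ, true_and, id] at hi hm
  have ik : i.val < k := by_contra fun l => hi (hk i (not_lt.1 l))
  have J : ∀ d (j : Fin n), j.val = i + d → Jp W j := fun d => by
    induction d with
    | zero => exact fun j e => Fin.ext e ▸ ⟨v, hv, fun c l => by_contra fun k => by have : c.val ≤ i.val := hm c k; omega, hi⟩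
    | succ d ih => exact fun j e => H ⟨i + d, by omega⟩ j (by simp; omega) (ih _ rfl)
  have T : ∀ d, VV F n (i + d) ≤ W ⊔ VV F n i := fun d => by
    induction d with
    | zero => exact le_sup_right
    | succ d ih =>
      intro x hx
      rcases lt_or_ge (i + d) n with l | l
      · obtain ⟨w, hw, w1, w2⟩ := J d ⟨_, l⟩ rfl
        rw [← sub_add_cancel x ((x ⟨_, l⟩ / w ⟨_, l⟩) • w)]
        refine add_mem (ih fun c k => ?_) (Submodule.mem_sup_left (W.smul_mem _ hw))
        rcases k.eq_or_lt with k | k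
        · obtain rfl : c = ⟨_, l⟩ := Fin.ext k.symm
          simp [w2]
        · simp [hx c k, w1 c k]
      · exact ih fun c k => by omega
  have := Submodule.finrank_mono (show ⊤ ≤ _ from fun x _ => T n fun c k => by omega)
  have := Submodule.finrank_add_le_finrank_add_finrank W (VV F n i)
  rw [rk_VV i.2.le] at this
  simp only [finrank_top, finrank_fin_fun] at *
  omega

/-- block diagonal matrices -/
def bd {k a : ℕ} (A : Matrix (Fin k) (Fin k) F) (B : Matrix (Fin a) (Fin a) F) : Matrix (Fin (k + a)) (Fin (k + a)) F :=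
  reindex finSumFinEquiv finSumFinEquiv (fromBlocks A 0 0 B)

/-- the last coordinates -/
def i2 (k a : ℕ) : S F a →ₗ[F] S F (k + a) where
  toFun v := Fin.addCases (fun _ => 0) v
  map_add' v w := funext fun j => by induction j using Fin.addCases <;> simp
  map_smul' c w := funext fun j => by induction j using Fin.addCases <;> simp

theorem cn {k a : ℕ} (i : Fin k) (j : Fin a) : Fin.castAdd a i < Fin.natAdd k j := by
  rw [Fin.lt_def]; simp; omega

include hψ in
theorem wh_mul {k a : ℕ} (hf : Hom f a) : wh (mul f g) (k + a) ψ = wh g k ψ * wh f a ψ := by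
  have hi : Injective (i2 (F := F) k a) := fun v w e => funext fun j => by simpa [i2] using congrFun e (Fin.natAdd k j)
  have hk : LinearMap.ker (LinearMap.funLeft F F (Fin.castAdd a)) = LinearMap.range (i2 (F := F) k a) := by
    ext v
    refine ⟨fun h => ⟨fun j => v (Fin.natAdd k j), funext fun j => ?_⟩, by rintro ⟨w, rfl⟩; ext j; simp [i2]⟩
    induction j using Fin.addCases <;> simp [i2]
    exact (congrFun h _).symm
  have hb : ∀ t : UT F k × UT F a, IsU (bd t.1.1.1 t.2.1.1) := fun t i j l => by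
    induction i using Fin.addCases <;> induction j using Fin.addCases
    · simpa [bd, one_apply] using t.1.2 _ _ l
    · exact absurd l (cn _ _).not_ge
    · simp [bd, one_apply, (cn _ _).ne']
    · simpa [bd, one_apply] using t.2.2 _ _ (by simpa using l)
  have ha : ∀ (A : Matrix (Fin k) (Fin k) F) (B : Matrix (Fin a) (Fin a) F) v, i2 k a (toLin' B v) = toLin' (bd A B) (i2 k a v) :=
    fun A B v => funext fun j => by induction j using Fin.addCases <;> simp [i2, bd, mulVec, dotProduct, Fin.sum_univ_add]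
  simp only [wh, mul, sum_mul]
  rw [orb' (fun (u : UT F (k + a)) W => W.map (tl u.1).1) (fun W => by simp [End.one_eq_id])
    (fun _ _ _ => by simp [End.mul_eq_comp, Submodule.map_comp]) (fun W u => term f g W (tl u.1).1 * conj (lam ψ u))
    (fun z W x => by rw [lam_conj, ← term_conj f g (tl z.1) W]; simp) (LinearMap.range (i2 k a)) ?_
    (fun t : UT F k × UT F a => mkU _ (hb t)) ?_ ?_ fun x n => map_eq_of_le _ (term_inv f g (left_ne_zero_of_mul n))]
  · rw [← univ_product_univ, expect_product, expect_mul_expect]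
    refine expect_congr rfl fun x _ => expect_congr rfl fun y _ => ?_
    rw [term_eq f g (i2 k a) (LinearMap.funLeft F F (Fin.castAdd a)) hi (LinearMap.funLeft_surjective_of_injective _ _ _
      (Fin.castAdd_injective _ _)) rfl hk (x := (tl (mkU _ (hb (x, y))).1).1) (a := toLin' y.1.1) (b := toLin' x.1.1) (ha x.1.1 _)
      fun v => funext fun j => by simp [tl_val, mkU, bd, mulVec, dotProduct, Fin.sum_univ_add],
      show lam ψ (mkU _ (hb (x, y))) = lam ψ x * lam ψ y from (congrArg ψ (by
        simp [mkU, sd, bd, Fin.sum_univ_add, add_assoc])).trans (ψ.map_add_eq_mul _ _), map_mul, tl_val, tl_val]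
    ring
  · intro W n
    have hW : finrank F W = a := by
      obtain ⟨u, -, n⟩ := exists_ne_zero_of_sum_ne_zero n
      exact term_rank f g hf (left_ne_zero_of_mul n)
    have d := good_disj (by rw [hW]) fun i j e hi => by_contra fun hj => n (bad_zero hψ e hi hj)
    let p := LinearMap.funLeft F F (Fin.natAdd k : Fin a → _)
    have pi : Injective (p ∘ₗ W.subtype) := LinearMap.ker_eq_bot.1 (LinearMap.ker_eq_bot'.2 fun v h => Subtype.ext (d _ v.2 fun j l => by
      induction j using Fin.addCases with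
      | left j => exact absurd l (by simp)
      | right j => exact congrFun h j))
    let e := LinearEquiv.ofBijective _ ⟨pi, (LinearMap.injective_iff_surjective_of_finrank_eq_finrank
      (hW.trans (finrank_fin_fun F).symm)).1 pi⟩
    let s := W.subtype ∘ₗ e.symm.toLinearMap
    have ps : ∀ v j, s v (Fin.natAdd k j) = v j := fun v => congrFun (e.apply_symm_apply v)
    refine ⟨mkU (LinearMap.toMatrix' (1 + (s - i2 k a) ∘ₗ p)) fun r c l => ?_, ?_⟩
    · rw [map_add, LinearMap.toMatrix'_one, Matrix.add_apply, add_eq_left, LinearMap.toMatrix'_apply]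
      induction r using Fin.addCases with
      | right r => simp [ps, i2]
      | left r =>
        induction c using Fin.addCases with
        | right c => exact absurd l (cn _ _).not_ge
        | left c => rw [LinearMap.comp_apply, show p _ = 0 from funext fun j => by simp [p, (cn _ _).ne'], map_zero]; rfl
    · rw [← LinearMap.range_comp, show (tl _).1 ∘ₗ i2 k a = s from LinearMap.ext fun v => by
        rw [tl_val, LinearMap.comp_apply]
        refine (congrArg (· (i2 k a v)) (toLin'_toMatrix' _)).trans ?_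
        simp [show p (i2 k a v) = v from funext fun j => by simp [p, i2]],
        LinearMap.range_comp, LinearEquiv.range, Submodule.map_top, Submodule.range_subtype]
  · intro s t e
    have := congrArg (fun u : UT F (k + a) => u.1.1) e
    obtain ⟨e1, -, -, e2⟩ := fromBlocks_inj.1 ((reindex _ _).injective this)
    exact Prod.ext (Subtype.ext (Units.ext e1)) (Subtype.ext (Units.ext e2))
  · refine fun u => ⟨fun e => ⟨(mkU (u.1.1.submatrix (Fin.castAdd a) (Fin.castAdd a)) fun i j l => ?_,
      mkU (u.1.1.submatrix (Fin.natAdd k) (Fin.natAdd k)) fun i j l => ?_), Subtype.ext (Units.ext ?_)⟩, ?_⟩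
    · simpa [one_apply] using u.2 (Fin.castAdd a i) (Fin.castAdd a j) l
    · simpa [one_apply] using u.2 (Fin.natAdd k i) (Fin.natAdd k j) (by simpa using l)
    · ext i j
      induction i using Fin.addCases <;> induction j using Fin.addCases <;> simp [mkU, bd]
      · rename_i i j
        have := congrFun (hk.ge (e.le ⟨_, ⟨Pi.single j 1, rfl⟩, rfl⟩)) i
        simpa [tl_val, i2, mulVec, dotProduct, Fin.sum_univ_add, Pi.single_apply, eq_comm] using this
      · exact (IsU.zero u.2 (cn _ _)).symm
    · rintro ⟨t, rfl⟩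
      exact map_eq_of_le _ (by rintro _ ⟨v, rfl⟩; exact ⟨_, ha _ _ v⟩)

variable (F n) in
/-- strictly upper triangular matrices whose first `k` columns vanish -/
def NN (k : ℕ) : Submodule F (Matrix (Fin n) (Fin n) F) where
  carrier := {M | ∀ i j : Fin n, j ≤ i ∨ j.val < k → M i j = 0}
  zero_mem' _ _ _ := rfl
  add_mem' ha hb i j l := by simp [ha i j l, hb i j l]
  smul_mem' c _ ha i j l := by simp [ha i j l]

noncomputable scoped instance fintypeNN (k : ℕ) : Fintype (NN F n k) := Fintype.ofFinite _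
noncomputable scoped instance fintypeVV (k : ℕ) : Fintype (VV F n k) := Fintype.ofFinite _

/-- splitting off the column `κ` -/
def colE (κ : Fin n) : NN F n (κ + 1) × VV F n κ ≃ NN F n κ where
  toFun p := ⟨p.1.1 + of fun i j => if j = κ then p.2.1 i else 0, fun i j l => by
    by_cases e : j = κ
    · subst e; simp [p.1.2 i j (.inr (Nat.lt_succ_self _)), p.2.2 i (l.resolve_right (lt_irrefl _))]
    · simp [e, p.1.2 i j (l.imp_right Nat.lt_succ_of_lt)]⟩
  invFun M := (⟨of fun i j => if j = κ then 0 else M.1 i j, fun i j l => ite_eq_left_iff.2 fun e =>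
    M.2 i j (l.imp_right fun h => lt_of_le_of_ne (Nat.le_of_lt_succ h) fun k => e (Fin.ext k))⟩,
    ⟨fun i => M.1 i κ, fun i l => M.2 i κ (.inl l)⟩)
  left_inv p := Prod.ext (Subtype.ext (Matrix.ext fun i j => by
    by_cases e : j = κ <;> simp [e, p.1.2 i κ (.inr (Nat.lt_succ_self _))]))
    (Subtype.ext (funext fun i => by simp [p.1.2 i κ (.inr (Nat.lt_succ_self _))]))
  right_inv M := Subtype.ext (Matrix.ext fun i j => by by_cases e : j = κ <;> simp [e])

theorem card_VV {k : ℕ} (H : k ≤ n) : Fintype.card (VV F n k) = Fintype.card F ^ k := by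
  rw [Module.card_eq_pow_finrank (K := F), rk_VV H]

include hψ in
theorem sum_VV {k : ℕ} (H : k ≤ n) (v : VV F n k) :
    ∑ l : VV F n k, ψ (l.1 ⬝ᵥ v.1) = if v = 0 then (Fintype.card F : ℂ) ^ k else 0 := by
  split_ifs with e
  · simp [e, card_VV H]
  obtain ⟨i, hi⟩ := Function.ne_iff.1 fun k => e (Subtype.ext k)
  refine avg_add (fun s : F => (⟨Pi.single i s, fun j l =>
    Pi.single_eq_of_ne (by rintro rfl; exact hi (v.2 _ l)) _⟩ : VV F n k)) _ fun x => ?_
  simp [add_dotProduct, AddChar.map_add_eq_mul, ← mul_sum, AddChar.sum_mulShift _ hψ, show v.1 i ≠ 0 from hi]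

theorem NN_U {k : ℕ} (M : NN F n k) : IsU (1 + M.1) := fun i j l => by simp [M.2 i j (.inl l)]

variable (f ψ n) in
/-- partial Whittaker sums -/
noncomputable def bb (k : ℕ) : ℂ := ∑ M : NN F n k, f.val (S F n) (toLin' (1 + M.1)) * conj (ψ (sd M.1))

include hψ in
theorem bb_succ (sf : SC f) (κ' κ : Fin n) (e : κ'.val + 1 = κ) :
    (Fintype.card F : ℂ) ^ κ.val * bb f n ψ (κ + 1) = ((Fintype.card F : ℂ) ^ κ.val - 1) * bb f n ψ κ := by
  let T : S F n → ℂ := fun l => ∑ M : NN F n κ, f.val (S F n) (toLin' (1 + M.1)) *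
    conj (ψ ((l ⬝ᵥ fun i => M.1 i κ) + sd ((colE κ).symm M).1.1))
  have e0 : ∀ j : Fin n, κ.val ≤ j.val → j ≠ κ' := by rintro _ l rfl; omega
  have t1 : ∑ l : VV F n κ, T l.1 = (Fintype.card F : ℂ) ^ κ.val * bb f n ψ (κ + 1) := by
    rw [sum_comm, ← (colE κ).sum_comp, Fintype.sum_prod_type, bb, mul_sum]
    refine sum_congr rfl fun M _ => ?_
    have : ∀ v, (fun i => (colE κ (M, v)).1 i κ) = v.1 := fun v => congrArg (·.2.1) ((colE κ).symm_apply_apply (M, v))
    simp only [Equiv.symm_apply_apply, this, AddChar.map_add_eq_mul, ← mul_sum, ← map_sum, ← sum_mul, sum_VV hψ κ.2.le]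
    rw [Fintype.sum_eq_single 0 fun v hv => by simp [hv], show (colE κ (M, 0)).1 = M.1 from Matrix.ext fun i j => by simp [colE]]
    simp [mul_left_comm]
  have t2 : T (Pi.single κ' 1) = bb f n ψ κ := sum_congr rfl fun M _ => by
    obtain ⟨⟨M, v⟩, rfl⟩ := (colE κ).surjective M
    rw [Equiv.symm_apply_apply, show sd (colE κ (M, v)).1 = _ from sd_add .., sd_single e (M := of fun i j => if j = κ then v.1 i else 0) fun i j k k' =>
      if_neg (by rintro rfl; exact k' (Fin.ext (by omega))), add_comm (sd _)]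
    simp [colE, M.2 κ' κ (.inr (Nat.lt_succ_self _))]
  have t3 : T 0 = 0 := by
    have hN : ∀ (t : Nil (VV F n κ)) (i j : Fin n), κ.val ≤ i.val ∨ j.val < κ.val → LinearMap.toMatrix' t.1 i j = 0 := fun t i j l => by
      rw [LinearMap.toMatrix'_apply]
      refine l.elim (t.2.1 _ i) fun l => congrFun (t.2.2 _ fun c k => Pi.single_eq_of_ne (by rintro rfl; omega) _) i
    refine avg_add (fun t : Nil (VV F n κ) => (⟨LinearMap.toMatrix' t.1,
      fun i j l => hN t i j (by rcases l with l | l; have : j.val ≤ i.val := l; all_goals omega)⟩ : NN F n κ)) _ fun M => ?_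
    refine (sum_congr rfl fun t _ => ?_).trans ((sum_mul ..).symm.trans (mul_eq_zero_of_left (sf _ (VV F n κ) (fun k => ?_) (fun k => ?_)
      _ (tl (mkU _ (NN_U M)).1).isUnit) (conj (ψ (sd ((colE κ).symm M).1.1)))))
    · refine congrArg₂ (fun a b => f.val _ a * conj (ψ b)) (LinearMap.ext fun v => ?_) ?_
      · have : M.1 *ᵥ t.1 v = 0 := funext fun i => show ∑ j, M.1 i j * t.1 v j = 0 from sum_eq_zero fun j _ => by
          rcases lt_or_ge j.val κ.val with l | l
          exacts [mul_eq_zero_of_left (M.2 i j (.inr l)) _, mul_eq_zero_of_right _ (t.2.1 v j l)]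
        simp [tl_val, mkU, add_mulVec, mulVec_add, this, add_assoc, add_comm, add_left_comm]
      · rw [zero_dotProduct, zero_add]
        refine sum_congr rfl fun i _ => sum_congr rfl fun j _ => ite_congr rfl (fun k => ?_) fun _ => rfl
        by_cases c : j = κ <;> simp [colE, c]
        exact hN t i j (by have : j.val ≠ κ.val := fun k => c (Fin.ext k); omega)
    · have := rk_VV (F := F) κ.2.le
      rw [k, finrank_bot] at this; omega
    · have := rk_VV (F := F) κ.2.le
      rw [k, finrank_top, finrank_fin_fun] at this; omega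
  have t4 : ∀ H : Matrix (Fin n) (Fin n) F, IsUnit H → (∀ i : Fin n, κ.val ≤ i.val → H i = Pi.single i 1) →
      T (Pi.single κ' 1) = T (H κ') := fun H hH h1 => by
    have m1 : ∀ (M : Matrix (Fin n) (Fin n) F) (i j : Fin n), κ.val ≤ i.val → (H * M) i j = M i j := fun M i j l => by
      simp [mul_apply, h1 i l, Pi.single_apply]
    let τ : NN F n κ → NN F n κ := fun M => ⟨H * M.1, fun i j l => by
      rcases lt_or_ge j.val κ.val with k | k
      · exact mul_apply.trans (sum_eq_zero fun c _ => mul_eq_zero_of_right _ (M.2 c j (.inr k)))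
      · rw [m1 _ _ _ (k.trans (l.resolve_right k.not_gt)), M.2 i j l]⟩
    refine (Fintype.sum_bijective τ (Finite.injective_iff_bijective.1 fun M N k =>
      Subtype.ext (hH.mul_left_cancel (congrArg Subtype.val k))) _ _ fun M => ?_).symm
    have m2 : M.1 * H = M.1 := Matrix.ext fun i j => by
      rw [mul_apply, sum_congr rfl fun c _ => (show _ = M.1 i c * (Pi.single c 1 : Fin n → F) j from by
        rcases lt_or_ge c.val κ.val with k | k
        · simp [M.2 i c (.inr k)]
        · rw [h1 c k])]
      simp [Pi.single_apply]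
    obtain ⟨z, rfl⟩ := hH
    refine congrArg₂ (fun a b => a * conj (ψ b)) (f.inv (ofU (tl z)) fun v => ?_) (congrArg₂ _ (by simp [τ, mul_apply, dotProduct, Pi.single_apply]) ?_)
    · change z.1 *ᵥ ((1 + M.1) *ᵥ v) = (1 + z.1 * M.1) *ᵥ (z.1 *ᵥ v)
      rw [mulVec_mulVec, mulVec_mulVec, mul_add, add_mul, mul_assoc, m2, mul_one, one_mul]
    · refine sum_congr rfl fun i _ => sum_congr rfl fun j _ => ite_congr rfl (fun k => ?_) fun _ => rfl
      by_cases c : j = κ <;> simp [colE, c, τ]
      rcases lt_or_ge j.val κ.val with l | l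
      · exact (M.2 i j (.inr l)).trans ((τ M).2 i j (.inr l)).symm
      · exact (m1 _ _ _ (by have : j.val ≠ κ.val := fun k => c (Fin.ext k); omega)).symm
  have t5 : ∀ l : VV F n κ, l ≠ 0 → T l.1 = bb f n ψ κ := fun l h => by
    obtain ⟨i, hi⟩ := Function.ne_iff.1 fun k => h (Subtype.ext k)
    have e1 : ∀ j : Fin n, κ.val ≤ j.val → j ≠ i := by rintro _ k rfl; exact hi (l.2 _ k)
    rw [← t2, t4 ((updateRow 1 i l.1).submatrix (Equiv.swap i κ') id) ?_ fun j k => funext fun c => by
      simp [Equiv.swap_apply_of_ne_of_ne (e1 j k) (e0 j k), updateRow_ne (e1 j k), one_apply, Pi.single_apply, eq_comm]]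
    · exact congrArg T (funext fun c => by simp)
    · refine mulVec_injective_iff_isUnit.1 ((injective_iff_map_eq_zero (toLin' _)).2 fun x hx => ?_)
      have h1 : ∀ c, updateRow (1 : Matrix _ _ F) i l.1 c ⬝ᵥ x = 0 := fun c => by
        simpa [mulVec] using congrFun hx (Equiv.swap i κ' c)
      have h2 : ∀ c, c ≠ i → x c = 0 := fun c k => by simpa [updateRow_ne k, dotProduct, one_apply] using h1 c
      have h3 := h1 i
      rw [updateRow_self, dotProduct, Fintype.sum_eq_single i fun c k => by rw [h2 c k, mul_zero]] at h3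
      exact funext fun c => (eq_or_ne c i).elim (fun k => k ▸ (_root_.mul_eq_zero.1 h3).resolve_left hi) (h2 c)
  rw [← t1, ← add_sum_erase _ _ (mem_univ 0), sum_congr rfl fun l hl => t5 l (ne_of_mem_erase hl), sum_const,
    card_erase_of_mem (mem_univ _), card_univ, card_VV κ.2.le, nsmul_eq_mul, Nat.cast_sub (Nat.one_le_pow _ _ Fintype.card_pos)]
  simp [t3]

include hψ in
theorem deg_sc (sf : SC f) (hn : 0 < n) : f.val (S F n) 1 = wh f n ψ * ∏ i ∈ Ico 1 n, ((Fintype.card F : ℂ) ^ i - 1) := by
  have q0 : (Fintype.card F : ℂ) ≠ 0 := Nat.cast_ne_zero.2 Fintype.card_ne_zero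
  have key : ∀ k, 1 ≤ k → k ≤ n → bb f n ψ k / Fintype.card (NN F n k) =
      bb f n ψ 1 / Fintype.card (NN F n 1) * ∏ i ∈ Ico 1 k, ((Fintype.card F : ℂ) ^ i - 1) := fun k h1 => by
    induction k, h1 using Nat.le_induction with
    | base => simp
    | succ k h1 ih =>
      intro l
      have e1 := bb_succ hψ sf (⟨k - 1, by omega⟩ : Fin n) ⟨k, l⟩ (Nat.sub_add_cancel h1)
      have e2 := Fintype.card_congr (colE (F := F) (⟨k, l⟩ : Fin n))
      rw [Fintype.card_prod, card_VV (Nat.le_of_succ_le l)] at e2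
      simp only at e1 e2
      rw [prod_Ico_succ_top h1, ← mul_assoc, ← ih (by omega), ← e2, Nat.cast_mul, Nat.cast_pow, div_mul_eq_mul_div, mul_comm (bb ..), ← e1,
        mul_comm (_ ^ _), mul_div_mul_right _ _ (pow_ne_zero _ q0)]
  have z : ∀ M : NN F n n, M = 0 := fun M => Subtype.ext (Matrix.ext fun i j => M.2 i j (.inr j.2))
  have k1 := key n hn le_rfl
  rw [bb, Fintype.sum_eq_single 0 fun M k => absurd (z M) k, Fintype.card_eq_one_iff.2 ⟨0, z⟩, bb,
    ← Fintype.expect_eq_sum_div_card, Fintype.expect_bijective (fun M : NN F n 1 => mkU _ (NN_U M))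
      ⟨fun M N k => Subtype.ext (add_left_cancel (congrArg (·.1.1) k)), fun u => ⟨⟨u.1.1 - 1, fun i j l => sub_eq_zero.2
        (u.2 i j (l.elim id fun l => by rw [Fin.le_def]; omega))⟩, Subtype.ext (Units.ext (add_sub_cancel ..))⟩⟩
      (fun M => f.val (S F n) (toLin' (1 + M.1)) * conj (ψ (sd M.1)))
      (fun u => f.val (S F n) (tl u.1).1 * conj (lam ψ u)) fun M => congrArg (fun b => _ * conj (ψ b))
        (((sd_add ..).trans (by rw [sd_one, zero_add])).symm)] at k1
  simpa [sd, wh, End.one_eq_id] using k1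

end Cfsg.Agent.Cusp
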