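import Cfsg.Agent.Cusp.D
import Cfsg.Agent.CharDeep.Ind
import Cfsg.Agent.GLChar.Flag

/-! Cuspidal characters of `GL_n(q)`, part E (helper7): Gelfand's trick (`gelfand`) and the norm of a monomial induced character
(`norm_ind`); the Gelfand–Graev character of `GL_n(q)` is multiplicity free with `(q - 1) q^(n-1)` constituents (`gg_one`, `gg_sum`). -/
set_option autoImplicit false
set_option linter.unusedSectionVars false
open Module Function Finset Matrix
open scoped ComplexConjugate BigOperators Classical MatrixGroups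

namespace Cfsg.Agent.Cusp
universe u

section
variable {G : Type*} [Group G] [Fintype G] {U : Subgroup G} (l : U →* ℂ)

/-- `g` supports a function of the Hecke algebra -/
def Rel (g : G) : Prop := ∀ u v : U, u * g = g * v → l u = l v

theorem l_conj (u : U) : l u * conj (l u) = 1 := by
  rw [← show l u⁻¹ = conj (l u) from (Char.isCharacter_hom l.toHomUnits).apply_inv u, ← map_mul, mul_inv_cancel, map_one]

theorem Rel.of {l : U →* ℂ} {g n : G} (h : Rel l g) {u v : U} (e : g * v = u * n) : Rel l n := fun a b k => by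
  have := h (u * a * u⁻¹) (v * b * v⁻¹) (by
    rw [eq_mul_inv_of_mul_eq e]; simp only [Subgroup.coe_mul, Subgroup.coe_inv, mul_assoc, inv_mul_cancel_left]
    rw [← mul_assoc _ n, k, mul_assoc])
  simpa only [map_mul, mul_right_comm _ _ (l _⁻¹), ← map_mul l _ _⁻¹, mul_inv_cancel, map_one, one_mul] using this

theorem gelfand (σ : G → G) (hσ : ∀ a b, σ (a * b) = σ b * σ a) (s : U ≃ U) (hs : ∀ u : U, σ u = s u) (hl : ∀ u, l (s u) = l u)
    (H : ∀ g, Rel l g → ∃ (u v : U) (n : G), g = u * n * v ∧ σ n = n) {χ : G → ℂ} (hχ : IsIrrCharacter G χ) :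
    classInner (fun u : U => χ u) l = 0 ∨ classInner (fun u : U => χ u) l = 1 := by
  obtain ⟨d, ρ, hρ, rfl⟩ := hχ
  have c0 : (Nat.card U : ℂ) ≠ 0 := Char.natCard_cast_ne_zero
  obtain ⟨E, hE⟩ : ∃ E : End ℂ (Fin d → ℂ), E = (Nat.card U : ℂ)⁻¹ • ∑ u : U, conj (l u) • ρ u := ⟨_, rfl⟩
  have e1 : ∀ u : U, E * ρ u = l u • E := fun u => by
    rw [hE, smul_mul_assoc, smul_comm, sum_mul, smul_sum (r := l u)]
    refine congrArg _ (Fintype.sum_equiv (Equiv.mulRight u) _ _ fun v => ?_)
    simp only [Equiv.coe_mulRight, map_mul, Subgroup.coe_mul, smul_smul, smul_mul_assoc]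
    rw [mul_left_comm, l_conj, mul_one]
  have e2 : ∀ u : U, ρ u * E = l u • E := fun u => by
    rw [hE, mul_smul_comm, smul_comm, mul_sum, smul_sum (r := l u)]
    refine congrArg _ (Fintype.sum_equiv (Equiv.mulLeft u) _ _ fun v => ?_)
    simp only [Equiv.coe_mulLeft, map_mul, Subgroup.coe_mul, smul_smul, mul_smul_comm]
    rw [← mul_assoc, l_conj, one_mul]
  have e3 : E * E = E := by
    nth_rw 1 [hE]
    simp only [smul_mul_assoc, sum_mul, e2, smul_smul, mul_comm (conj _), l_conj, one_smul, sum_const, card_univ]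
    rw [← Nat.cast_smul_eq_nsmul ℂ, smul_smul, ← Nat.card_eq_fintype_card, inv_mul_cancel₀ c0, one_smul]
  have e4 : ∀ (g : G) (u v : U), u * g = g * v → l u ≠ l v → E * ρ g * E = 0 := fun g u v e n => by
    have : l u • (E * ρ g * E) = l v • (E * ρ g * E) := by
      rw [← smul_mul_assoc, ← smul_mul_assoc, ← e1, ← mul_smul_comm, ← e2, mul_assoc E, ← map_mul, e, map_mul]
      simp only [mul_assoc]
    exact by_contra fun k => n (smul_left_injective ℂ k this)
  have e5 : ∀ g, E * ρ g * E = E * ρ (σ g) * E := fun g => by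
    by_cases h : Rel l g
    · obtain ⟨u, v, n, rfl, hn⟩ := H g h
      simp only [hσ, hs, hn, map_mul, ← mul_assoc, e1, smul_mul_assoc, hl]
      simp only [mul_assoc, e2, mul_smul_comm, hl, smul_smul, mul_comm]
    · simp only [Rel, not_forall] at h
      obtain ⟨u, v, e, n⟩ := h
      rw [e4 g u v e n, e4 (σ g) (s v) (s u) (by rw [← hs, ← hs, ← hσ, ← hσ, e]) (by rw [hl, hl]; exact Ne.symm n)]
  have e6 : ∀ g h, E * ρ g * E * ρ h * E = E * ρ h * E * ρ g * E := fun g h => by
    have k : ∀ a b, E * ρ a * E * ρ b * E = (Nat.card U : ℂ)⁻¹ • ∑ u : U, conj (l u) • (E * ρ (a * u * b) * E) := fun a b => by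
      nth_rw 2 [hE]
      simp only [mul_smul_comm, smul_mul_assoc, mul_sum, sum_mul, map_mul, mul_assoc]
    calc _ = E * ρ (σ h) * E * ρ (σ g) * E := by
          rw [k, k]
          exact congrArg _ (Fintype.sum_equiv s _ _ fun u => by rw [e5, hσ, hσ, hs, hl, mul_assoc (σ h)])
      _ = (E * ρ (σ h) * E) * (E * ρ (σ g) * E) := by rw [← mul_assoc, ← mul_assoc, mul_assoc _ E E, e3]
      _ = _ := by rw [← e5, ← e5, ← mul_assoc, ← mul_assoc, mul_assoc _ E E, e3]
  have e7 : ∀ v, v ≠ 0 → ∀ Y : Submodule ℂ (Fin d → ℂ), (∀ g, ρ g v ∈ Y) → Y = ⊤ := fun v hv Y hY => by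
    refine top_le_iff.1 (((((Char.isIrreducible_iff ρ).1 hρ).2 (Submodule.span ℂ (Set.range fun g => ρ g v)) fun g _ hx =>
      Submodule.mem_comap.1 ((Submodule.span_le (p := Submodule.comap (ρ g) _)).2 ?_ hx)).resolve_left fun k => hv ?_).ge.trans (Submodule.span_le.2 (Set.range_subset_iff.2 hY)))
    · rintro _ ⟨h, rfl⟩
      exact Submodule.subset_span ⟨g * h, by simp⟩
    · simpa using k.le (Submodule.subset_span ⟨1, rfl⟩)
  have e8 : classInner (fun u : U => ρ.character u) l = finrank ℂ (LinearMap.range E) := by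
    rw [← (LinearMap.IsIdempotentElem.isProj_range E e3).trace, hE, classInner]
    simp [Representation.character, mul_comm]
  have fx : ∀ v ∈ LinearMap.range E, E v = v := by rintro _ ⟨v, rfl⟩; exact LinearMap.congr_fun e3 v
  rw [e8]
  rcases eq_or_ne (LinearMap.range E) ⊥ with h | h
  · simp [h]
  have := Submodule.nontrivial_iff_ne_bot.2 h
  have e9 : ∀ g, ∃ c : ℂ, E * ρ g * E = c • E := fun g => by
    obtain ⟨c, hc⟩ := End.exists_eigenvalue ((E * ρ g * E).restrict (p := LinearMap.range E) fun v _ => ⟨_, rfl⟩)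
    obtain ⟨⟨v, hv⟩, h1⟩ := hc.exists_hasEigenvector
    have h2 : E (ρ g (E v)) = c • v := congrArg Subtype.val h1.apply_eq_smul
    refine ⟨c, sub_eq_zero.1 (LinearMap.ker_eq_top.1 (e7 v (fun k => h1.2 (Subtype.ext k)) _ fun x => ?_))⟩
    have := LinearMap.congr_fun (e6 g x) v
    simp only [End.mul_apply, h2] at this
    rw [fx v hv] at this
    simp [this]
  obtain ⟨v, hv, n⟩ := Submodule.exists_mem_ne_zero_of_ne_bot h
  have : LinearMap.range E = Submodule.span ℂ {v} := by
    refine le_antisymm (LinearMap.range_le_iff_comap.2 (e7 v n _ fun g => ?_)) ((Submodule.span_singleton_le_iff_mem ..).2 hv)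
    obtain ⟨c, hc⟩ := e9 g
    exact Submodule.mem_span_singleton.2 ⟨c, by simpa [fx v hv] using (LinearMap.congr_fun hc v).symm⟩
  rw [this, finrank_span_singleton n]
  simp

theorem norm_ind {T : Type*} [Fintype T] (r : T → G) (h1 : ∀ t, Rel l (r t)) (h2 : ∀ g, Rel l g → ∃ (t : T) (u v : U), g = u * r t * v)
    (h3 : ∀ t t' (u v : U), u * r t = r t' * v → t = t') : classInner (indFun U l) (indFun U l) = Fintype.card T := by
  let Φ : G → U × U → ℂ := fun x k => if k.1 * x * (k.2 : G)⁻¹ = x then l k.2 * conj (l k.1) else 0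
  have c0 : (Fintype.card U : ℂ) ≠ 0 := Nat.cast_ne_zero.2 Fintype.card_ne_zero
  have e1 : classInner (indFun U l) (indFun U l) = 𝔼 k, ∑ x, Φ x k := by
    rw [CharDeep.classInner_indFun_right U _ (CharDeep.indFun_isClassFunction U _), classInner, Fintype.expect_eq_sum_div_card,
      Fintype.sum_prod_type, Fintype.card_prod, Nat.card_eq_fintype_card, Nat.cast_mul, ← div_div, div_eq_inv_mul, sum_div]
    refine congrArg _ (sum_congr rfl fun u _ => ?_)
    rw [CharDeep.indFun_apply, Nat.card_eq_fintype_card, mul_assoc, div_eq_inv_mul, sum_mul, sum_comm]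
    refine congrArg _ (sum_congr rfl fun x _ => ?_)
    have : ∀ v : U, (u * x * (v : G)⁻¹ = x) = (x⁻¹ * u * x = v) := fun v => by
      rw [mul_inv_eq_iff_eq_mul, mul_assoc, inv_mul_eq_iff_eq_mul]
    simp only [Φ, this, CharDeep.extendByZero_apply]
    split_ifs with h
    · rw [Fintype.sum_eq_single ⟨_, h⟩ fun v hv => if_neg fun e => hv (Subtype.ext e.symm), if_pos rfl]
    · rw [zero_mul, sum_eq_zero fun v _ => if_neg fun e => h (by rw [e]; exact v.2)]
  have e2 : ∀ x, ∑ k, Φ x k = ∑ t, if ∃ k : U × U, k.1 * r t * (k.2 : G)⁻¹ = x then ∑ k, Φ x k else 0 := fun x => by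
    by_cases h : Rel l x
    · obtain ⟨t, u, v, rfl⟩ := h2 x h
      rw [Fintype.sum_eq_single t fun t' n => if_neg ?_, if_pos ⟨(u, v⁻¹), by simp⟩]
      rintro ⟨⟨a, b⟩, e⟩
      exact n (h3 _ _ (u⁻¹ * a) (v * b) (by simp only [Subgroup.coe_mul, Subgroup.coe_inv] at e ⊢; rw [mul_assoc, eq_mul_of_mul_inv_eq e]; group))
    · simp only [Rel, not_forall] at h
      obtain ⟨u, v, e, n⟩ := h
      have : ∑ k, Φ x k = 0 := by
        have k1 : ∑ k, Φ x k = (∑ k, Φ x k) * (l v * conj (l u)) := by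
          rw [sum_mul]
          refine (Fintype.sum_equiv (Equiv.mulRight (u, v)) _ _ fun k => ?_).symm
          have : k.1 * u * x * (k.2 * v : G)⁻¹ = k.1 * x * (k.2 : G)⁻¹ := by rw [mul_assoc _ _ x, e]; group
          simp only [Φ, Equiv.coe_mulRight, Prod.fst_mul, Prod.snd_mul, Subgroup.coe_mul, Subgroup.coe_inv, this, map_mul, ite_mul, zero_mul]
          exact if_congr Iff.rfl (by ring) rfl
        refine by_contra fun k => n ?_
        rw [← one_mul (l u), ← mul_left_cancel₀ k (k1.symm.trans (mul_one _).symm), mul_assoc, mul_comm (conj _), l_conj, mul_one]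
      simp [this]
  rw [e1, expect_sum_comm]
  simp only [Fintype.expect_eq_sum_div_card, ← sum_div]
  rw [sum_congr rfl fun x _ => e2 x, sum_comm, sum_div, ← card_univ (α := T), card_eq_sum_ones, Nat.cast_sum]
  refine sum_congr rfl fun t _ => ?_
  have := orb (fun (k : U × U) x => k.1 * x * (k.2 : G)⁻¹) (by simp) (by simp [mul_assoc])
    (fun x k => if ∃ k : U × U, k.1 * r t * (k.2 : G)⁻¹ = x then Φ x k else 0) (fun g x k => by
      refine if_congr ⟨fun ⟨a, e⟩ => ⟨g⁻¹ * a, ?_⟩, fun ⟨a, e⟩ => ⟨g * a, by simp [← e, mul_assoc]⟩⟩ (if_congr ?_ ?_ rfl) rfl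
      · simp only [Prod.fst_mul, Prod.snd_mul, Prod.fst_inv, Prod.snd_inv, Subgroup.coe_mul, Subgroup.coe_inv] at e ⊢
        rw [show x = (g.1 : G)⁻¹ * (g.1 * x * (g.2 : G)⁻¹) * g.2 by simp [mul_assoc], ← e]; simp [mul_assoc]
      · simp [← mul_assoc]; simp [mul_assoc]
      · simp only [Prod.fst_mul, Prod.snd_mul, Prod.fst_inv, Prod.snd_inv, map_mul l, mul_right_comm _ _ (l _⁻¹), ← map_mul l _ _⁻¹,
          mul_inv_cancel, map_one, one_mul]) (r t) (fun x k n => by_contra fun e => n (if_neg e))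
    (Subtype.val : {k : U × U // k.1 * r t * (k.2 : G)⁻¹ = r t} → _) Subtype.val_injective
    (fun k => ⟨fun e => ⟨⟨k, e⟩, rfl⟩, by rintro ⟨k, rfl⟩; exact k.2⟩) fun k n => by_contra fun e => n (by simp only [Φ, e, if_false, ite_self])
  have ne : Nonempty {k : U × U // k.1 * r t * (k.2 : G)⁻¹ = r t} := ⟨⟨1, by simp⟩⟩
  replace this := this.trans ((expect_congr (g := fun _ => 1) rfl fun k _ => by
    rw [if_pos ⟨1, by simp⟩, show Φ _ _ = _ from if_pos k.2, ← h1 t _ _ (eq_mul_of_mul_inv_eq k.2), l_conj]).trans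
      (expect_const univ_nonempty _))
  rw [Fintype.expect_eq_sum_div_card, sum_comm] at this
  rw [Nat.cast_one, ← this]
  exact congrArg (· / _) (sum_congr rfl fun x _ => by split_ifs <;> simp)
end

theorem blocks {n : ℕ} (W : ℕ → ℕ) (z : ℕ → Prop) (inj : ∀ a < n, ∀ b < n, W a = W b → a = b)
    (h1 : ∀ k, k + 1 < n → z (k + 1) → W (k + 1) = W k + 1) (h2 : ∀ k, k + 1 < n → ¬ z (k + 1) → W (k + 1) < W k) :
    ∀ b < n, ∀ a < b, ((∀ e, a < e → e ≤ b → z e) → W a < W b) ∧ ∀ e, a < e → e ≤ b → ¬ z e → W b < W a := by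
  intro b
  induction b with
  | zero => exact fun _ a l => absurd l (Nat.not_lt_zero _)
  | succ c ih =>
    intro hb a ha
    refine ⟨fun H => ?_, fun e l1 l2 n1 => ?_⟩
    · have := h1 c hb (H _ ha le_rfl)
      rcases (Nat.le_of_lt_succ ha).eq_or_lt with rfl | l
      · omega
      · have := (ih (by omega) a l).1 fun e k1 k2 => H e k1 (by omega); omega
    by_cases hz : z (c + 1)
    · have : e ≠ c + 1 := fun k => n1 (k ▸ hz)
      have := (ih (by omega) a (by omega)).2 e l1 (by omega) n1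
      have := h1 c hb hz
      have := inj a (by omega) _ hb
      omega
    · have key : ∀ d a, a + d = c → W (c + 1) < W a := fun d => by
        induction d with
        | zero => rintro a rfl; exact h2 _ hb hz
        | succ d ih =>
          intro a k
          have := ih (a + 1) (by omega)
          by_cases hz' : z (a + 1)
          · have := h1 a (by omega) hz'
            have := inj a (by omega) _ hb
            omega
          · have := h2 a (by omega) hz'; omega
      exact key (c - a) a (by omega)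

variable {F : Type u} [Field F] [Fintype F] {n : ℕ} {ψ : AddChar F ℂ}

/-- monomial matrices -/
def mm (w : Equiv.Perm (Fin n)) (l : Fin n → F) : Matrix (Fin n) (Fin n) F := of fun i j => if i = w j then l j else 0

theorem mul_mm (M : Matrix (Fin n) (Fin n) F) (w : Equiv.Perm (Fin n)) (l : Fin n → F) (i j : Fin n) :
    (M * mm w l) i j = M i (w j) * l j := by simp [mm, mul_apply]

theorem mm_mul (M : Matrix (Fin n) (Fin n) F) (w : Equiv.Perm (Fin n)) (l : Fin n → F) (i j : Fin n) :
    (mm w l * M) (w i) j = l i * M i j := by simp [mm, mul_apply]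

/-- invertible monomial matrices -/
def mon (w : Equiv.Perm (Fin n)) (l : Fin n → F) (h : ∀ i, l i ≠ 0) : GL (Fin n) F where
  val := mm w l
  inv := mm w.symm fun i => (l (w.symm i))⁻¹
  val_inv := Matrix.ext fun i j => by rw [mul_mm]; by_cases e : i = j <;> simp [mm, e, h, one_apply]
  inv_val := Matrix.ext fun i j => by rw [mul_mm]; by_cases e : i = j <;> simp [mm, e, h, one_apply]

theorem bruhat' (g : GL (Fin n) F) : ∃ (u v : UT F n) (w : _) (l : _) (h : _), g * v.1 = u.1 * mon w l h := by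
  obtain ⟨w, b, c, hb, hc, e⟩ := GLChar.bruhat g
  have k : ∀ b : GL (Fin n) F, b.1.BlockTriangular id → ∀ i, b.1 i i ≠ 0 := fun b h i =>
    prod_ne_zero_iff.1 ((det_of_upperTriangular h).symm.trans_ne b.det_ne_zero) i (mem_univ _)
  have k' : ∀ b : GL (Fin n) F, b.1.BlockTriangular id → IsU (b.1 * diagonal fun i => (b.1 i i)⁻¹) := fun b h i j l => by
    rw [mul_diagonal]
    rcases l.eq_or_lt with rfl | l
    · simp [k b h]
    · rw [h l, zero_mul, one_apply_ne l.ne']
  refine ⟨mkU _ (k' b hb), mkU _ (k' c hc), w, fun j => b.1 (w j) (w j) * (c.1 j j)⁻¹,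
    fun j => mul_ne_zero (k b hb _) (inv_ne_zero (k c hc _)), Units.ext (Matrix.ext fun i j => ?_)⟩
  refine .trans ?_ (mul_mm ..).symm
  simp only [mkU, Units.val_mul, GeneralLinearGroup.val_mkOfDetNeZero]
  rw [← mul_assoc, ← Units.val_mul, e, mul_diagonal, mul_diagonal, Units.val_mul, mul_apply]
  simp [GLChar.pm_apply, mul_assoc, k b hb]

theorem mon_uniq {w w' : Equiv.Perm (Fin n)} {l l' : Fin n → F} (h' : ∀ i, l' i ≠ 0) {u v : Matrix (Fin n) (Fin n) F} (hu : IsU u)
    (hv : IsU v) (e : u * mm w l = mm w' l' * v) : w = w' ∧ l = l' := by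
  have k : ∀ j, u (w' j) (w j) * l j = l' j := fun j => by rw [← mul_mm, e, mm_mul, hv.one, mul_one]
  have k1 : ∀ j, (w' j).val ≤ (w j).val := fun j => not_lt.1 fun m => h' j (by rw [← k, hu.zero m, zero_mul])
  obtain rfl : w' = w := Equiv.ext fun j => Fin.ext ((sum_eq_sum_iff_of_le fun j _ => k1 j).1
    ((Equiv.sum_comp w' Fin.val).trans (Equiv.sum_comp w Fin.val).symm) j (mem_univ _))
  exact ⟨rfl, funext fun j => by rw [← k, hu.one, one_mul]⟩

theorem rel_nec (hψ : ψ.IsPrimitive) {w : Equiv.Perm (Fin n)} {l : Fin n → F} {h : ∀ i, l i ≠ 0} (H : Rel (lam ψ) (mon w l h))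
    {i j : Fin n} (e : i.val + 1 = j.val) (k : w i < w j) : (w i).val + 1 = (w j).val ∧ l j = l i := by
  have U : ∀ (a b : Fin n) (t : F), a < b → IsU (1 + single a b t) := fun a b t m r c m' => by
    rw [Matrix.add_apply, single_apply_of_ne, add_zero]
    rintro ⟨rfl, rfl⟩; exact m.not_ge m'
  have s : ∀ (a b : Fin n) (t : F), sd (1 + single a b t) = t * if a.val + 1 = b.val then 1 else 0 := fun a b t => by
    rw [sd_add, sd_one, zero_add, sd, Fintype.sum_eq_single a fun r m => by simp [m.symm],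
      Fintype.sum_eq_single b fun r m => by simp [m.symm]]
    simp
  have := fun t => H (mkU _ (U _ _ (t * (l i / l j)) k)) (mkU _ (U i j t (by rw [Fin.lt_def]; omega)))
    (Units.ext (Matrix.ext fun a b => by
      obtain ⟨a, rfl⟩ := w.surjective a
      refine (mul_mm ..).trans (.trans ?_ (mm_mul ..).symm)
      simp only [mkU, GeneralLinearGroup.val_mkOfDetNeZero, Matrix.add_apply, single_apply, one_apply, w.apply_eq_iff_eq, add_mul, mul_add]
      refine congrArg₂ _ (by split_ifs with m <;> simp [m]) ?_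
      split_ifs with m
      · rw [← m.1, ← m.2, mul_assoc, div_mul_cancel₀ _ (h j), mul_comm]
      · simp))
  have c : (l i / l j * if (w i).val + 1 = (w j).val then 1 else 0) - 1 = 0 := by_contra fun c => hψ c (AddChar.ext _ _ fun t => by
    have := this t
    change ψ (sd _) = ψ (sd _) at this
    simp only [mkU, GeneralLinearGroup.val_mkOfDetNeZero, s, e, if_true, mul_one] at this
    rw [AddChar.mulShift_apply, sub_mul, AddChar.map_sub_eq_div, mul_comm _ t, ← mul_assoc, this, one_mul,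
      div_self (AddChar.val_isUnit ..).ne_zero, AddChar.one_apply])
  split_ifs at c with m
  · exact ⟨m, (div_eq_one_iff_eq (h j)).1 (by simpa [sub_eq_zero] using c) |>.symm⟩
  · simp at c

section
variable (s : Fin n → F)

/-- extension by `1` -/
noncomputable def ex (k : ℕ) : F := if h : k < n then s ⟨k, h⟩ else 1
/-- start of a block -/
noncomputable def st (k : ℕ) : ℕ := Nat.findGreatest (fun e => ex s e ≠ 0) k
theorem en_ex (k : ℕ) : ∃ e, k < e ∧ ex s e ≠ 0 := ⟨k + 1 + n, by omega, by rw [ex, dif_neg (by omega)]; exact one_ne_zero⟩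
/-- end of a block -/
noncomputable def en (k : ℕ) : ℕ := Nat.find (en_ex s k)

theorem st_le (k : ℕ) : st s k ≤ k := Nat.findGreatest_le k
theorem le_st {k e : ℕ} (l : e ≤ k) (h : ex s e ≠ 0) : e ≤ st s k := Nat.le_findGreatest l h
theorem lt_en (k : ℕ) : k < en s k := (Nat.find_spec (en_ex s k)).1
theorem en_ne (k : ℕ) : ex s (en s k) ≠ 0 := (Nat.find_spec (en_ex s k)).2
theorem en_le {k e : ℕ} (l : k < e) (h : ex s e ≠ 0) : en s k ≤ e := Nat.find_min' _ ⟨l, h⟩
theorem en_le_n (k : Fin n) : en s k ≤ n := en_le s k.2 (by rw [ex, dif_neg (lt_irrefl _)]; exact one_ne_zero)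

variable {s} (h0 : ex s 0 ≠ 0)
include h0
theorem st_ne (k : ℕ) : ex s (st s k) ≠ 0 := Nat.findGreatest_spec (P := fun e => ex s e ≠ 0) (Nat.zero_le k) h0

theorem same {k j : ℕ} (l1 : st s k ≤ j) (l2 : j < en s k) : st s j = st s k ∧ en s j = en s k := by
  have a1 := le_st s l1 (st_ne h0 k)
  have a2 := en_le s l2 (en_ne s k)
  have a3 := st_le s j
  have a4 := lt_en s j
  have a5 := fun l => le_st s (k := k) l (st_ne h0 j)
  have a6 := fun l => en_le s (k := k) l (st_ne h0 j)
  have a7 := fun l => le_st s (k := k) l (en_ne s j)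
  have a8 := fun l => en_le s (k := k) l (en_ne s j)
  omega

omit h0 in
variable (s) in
/-- reversal inside the blocks -/
noncomputable def ta (k : Fin n) : Fin n :=
  ⟨st s k + en s k - 1 - k, by have := en_le_n s k; have := st_le s k; have := lt_en s k; omega⟩

theorem ta_same (k : Fin n) : st s (ta s k) = st s k ∧ en s (ta s k) = en s k := by
  have := st_le s k; have := lt_en s k
  exact same h0 (by simp only [ta]; omega) (by simp only [ta]; omega)

theorem ta_ta (k : Fin n) : ta s (ta s k) = k := Fin.ext (by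
  have := st_le s k; have := lt_en s k; have := ta_same h0 k
  simp only [ta] at *; omega)

/-- the permutation -/
noncomputable def ww : Equiv.Perm (Fin n) := (Involutive.toPerm _ (ta_ta h0)).trans Fin.revPerm

theorem ww_val (k : Fin n) : (ww h0 k).val + st s k + en s k = n + k := by
  have := en_le_n s k; have := st_le s k; have := lt_en s k
  change n - (st s k + en s k - 1 - k + 1) + st s k + en s k = n + k
  omega

theorem ww_cases {a b : Fin n} (l : a < b) :
    (st s b = st s a ∧ en s b = en s a ∧ b.val < en s a) ∨ (ww h0 b < ww h0 a ∧ en s a ≤ b) := by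
  have := st_le s a; have := ww_val h0 a; have := ww_val h0 b; have := lt_en s b; have l' : a.val < b.val := l
  rcases lt_or_ge b.val (en s a) with m | m
  · have := same h0 (k := a) (j := b) (by omega) m
    exact .inl ⟨this.1, this.2, m⟩
  · have := le_st s m (en_ne s a)
    exact .inr ⟨by rw [Fin.lt_def]; omega, m⟩

/-- the relevant monomial matrix -/
noncomputable def rr : GL (Fin n) F := mon (ww h0) (fun k => ex s (st s k)) fun k => st_ne h0 k

theorem rr_rel : Rel (lam ψ) (rr h0) := fun u v e => by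
  refine congrArg ψ ((Equiv.sum_comp (ww h0) _).symm.trans (sum_congr rfl fun a _ =>
    (Equiv.sum_comp (ww h0) _).symm.trans (sum_congr rfl fun b _ => ?_)))
  have k : u.1.1 (ww h0 a) (ww h0 b) * ex s (st s b) = ex s (st s a) * v.1.1 a b :=
    (mul_mm _ _ (fun k => ex s (st s k)) ..).symm.trans ((congrArg (·.1 (ww h0 a) b) e).trans (mm_mul _ _ (fun k => ex s (st s k)) ..))
  by_cases z : v.1.1 a b = 0
  · rw [z, mul_zero, _root_.mul_eq_zero] at k
    rw [z, k.resolve_right (st_ne h0 _), ite_self, ite_self]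
  have z' : u.1.1 (ww h0 a) (ww h0 b) ≠ 0 := fun m => z ((_root_.mul_eq_zero.1 (k.symm.trans (by rw [m, zero_mul]))).resolve_left (st_ne h0 _))
  rcases (not_lt.1 fun m => z (IsU.zero v.2 m)).eq_or_lt with rfl | m
  · simp
  rcases ww_cases h0 m with c | c
  · have := ww_val h0 a; have := ww_val h0 b
    rw [c.1, mul_comm] at k
    exact if_congr (by omega) (mul_left_cancel₀ (st_ne h0 _) k) rfl
  · exact absurd (IsU.zero u.2 c.1) z'

theorem ex_succ {a b : Fin n} (e : a.val + 1 = b.val) : ex s b = if ww h0 a < ww h0 b then 0 else ex s (st s b) := by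
  have := ww_val h0 a; have := ww_val h0 b
  rcases ww_cases h0 (show a < b by rw [Fin.lt_def]; omega) with c | c
  · rw [if_pos (by rw [Fin.lt_def]; omega)]
    exact by_contra fun m => c.2.2.not_ge (en_le s (by omega) m)
  · have := lt_en s a; have := st_le s b; have := le_st s c.2 (en_ne s a)
    rw [if_neg c.1.not_gt, show st s b = b by omega]

theorem rr_uniq {s' : Fin n → F} (h0' : ex s' 0 ≠ 0) (u v : UT F n) (e : u.1 * rr h0 = rr h0' * v.1) : s = s' := by
  obtain ⟨e1, e2⟩ := mon_uniq (fun k => st_ne h0' k) u.2 v.2 (congrArg Units.val e)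
  refine funext fun b => (show ex s b = s b from dif_pos b.2).symm.trans (.trans ?_ (show ex s' b = s' b from dif_pos b.2))
  have e3 : ex s (st s b) = ex s' (st s' b) := congrFun e2 b
  rcases Nat.eq_zero_or_pos b.val with m | m
  · have := st_le s b; have := st_le s' b
    rwa [show st s b = b by omega, show st s' b = b by omega] at e3
  · rw [ex_succ h0 (a := ⟨b - 1, by omega⟩) (Nat.sub_add_cancel m), ex_succ h0' (a := ⟨b - 1, by omega⟩) (Nat.sub_add_cancel m), e1, e3]
end

theorem rel_form (hψ : ψ.IsPrimitive) {w : Equiv.Perm (Fin n)} {l : Fin n → F} {h : ∀ i, l i ≠ 0} (H : Rel (lam ψ) (mon w l h)) :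
    ∃ (s : Fin n → F) (h0 : ex s 0 ≠ 0), mon w l h = rr h0 := by
  let W : ℕ → ℕ := fun k => if m : k < n then (w ⟨k, m⟩).val else 0
  have hW : ∀ k : Fin n, W k = w k := fun k => dif_pos k.2
  let s : Fin n → F := fun k => if 0 < k.val ∧ W (k - 1) < W k then 0 else l k
  have e1 : ∀ k : Fin n, ex s k = if 0 < k.val ∧ W (k - 1) < W k then 0 else l k := fun k => dif_pos k.2
  have h0 : ex s 0 ≠ 0 := by
    rcases Nat.eq_zero_or_pos n with rfl | m
    · simp [ex]
    · simpa using (e1 ⟨0, m⟩).trans_ne (by simpa using h _)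
  have e2 : ∀ k (m : k + 1 < n), ex s (k + 1) = 0 → W (k + 1) = W k + 1 ∧ l ⟨k + 1, m⟩ = l ⟨k, by omega⟩ := fun k m z => by
    have := (ite_eq_left_iff.1 ((e1 ⟨_, m⟩).symm.trans z)).mt (h _)
    have := rel_nec hψ H (i := ⟨k, by omega⟩) (j := ⟨k + 1, m⟩) rfl (by rw [Fin.lt_def, ← hW, ← hW]; exact (not_not.1 this).2)
    exact ⟨by rw [← hW, ← hW] at this; exact this.1.symm, this.2⟩
  have inj : ∀ a < n, ∀ b < n, W a = W b → a = b := fun a ha b hb e =>
    congrArg Fin.val (w.injective (Fin.ext ((hW ⟨a, ha⟩).symm.trans (e.trans (hW ⟨b, hb⟩)))))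
  have B := blocks W (fun k => ex s k = 0) inj (fun k m z => (e2 k m z).1) fun k m z => by
    have : ¬ W k < W (k + 1) := fun c => z ((e1 ⟨_, m⟩).trans (if_pos ⟨Nat.succ_pos _, c⟩))
    have := inj k (by omega) _ m
    omega
  have e3 : ∀ k (m : k < n), l ⟨k, m⟩ = ex s (st s k) := fun k => by
    induction k with
    | zero => exact fun m => ((e1 ⟨0, m⟩).trans (if_neg (by simp))).symm
    | succ k ih =>
      intro m
      rw [st, Nat.findGreatest_succ]
      split_ifs with c
      · exact ((e1 ⟨_, m⟩).trans (if_neg fun d => c ((e1 ⟨_, m⟩).trans (if_pos d)))).symm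
      · exact (e2 k m (not_not.1 c)).2.trans (ih _)
  have e4 : StrictMono (w ∘ (ww h0).symm) := fun a b m => by
    obtain ⟨a, rfl⟩ := (ww h0).surjective a
    obtain ⟨b, rfl⟩ := (ww h0).surjective b
    simp only [Function.comp_apply, Equiv.symm_apply_apply, Fin.lt_def, ← hW]
    rcases lt_trichotomy a b with c | rfl | c
    · exact (B b b.2 a c).1 fun e l1 l2 => by_contra fun z =>
        (ww_cases h0 c).elim (fun d => (l2.trans_lt d.2.2).not_ge (en_le s l1 z)) fun d => m.not_gt d.1
    · exact absurd m (lt_irrefl _)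
    · have := ww_val h0 a; have := ww_val h0 b; have m' : (ww h0 a).val < (ww h0 b).val := m; have c' : b.val < a.val := c
      exact (B a a.2 b c).2 _ (lt_en s b) ((ww_cases h0 c).elim (by omega) (·.2)) (en_ne s b)
  exact ⟨_, h0, Units.ext (congrArg₂ mm (Equiv.ext fun k => by simpa using congrFun e4.eq_id (ww h0 k)) (funext fun k => e3 k k.2))⟩

/-- reflection in the antidiagonal -/
def sg (g : GL (Fin n) F) : GL (Fin n) F where
  val := g.1ᵀ.submatrix Fin.revPerm Fin.revPerm
  inv := g⁻¹.1ᵀ.submatrix Fin.revPerm Fin.revPerm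
  val_inv := by rw [submatrix_mul_equiv, ← transpose_mul, Units.inv_mul, transpose_one, submatrix_one_equiv]
  inv_val := by rw [submatrix_mul_equiv, ← transpose_mul, Units.mul_inv, transpose_one, submatrix_one_equiv]

theorem rel_rr (hψ : ψ.IsPrimitive) (g : GL (Fin n) F) (H : Rel (lam ψ) g) :
    ∃ (t : {s : Fin n → F // ex s 0 ≠ 0}) (u v : UT F n), g = u * rr t.2 * v := by
  obtain ⟨u, v, w, l, h, e⟩ := bruhat' g
  obtain ⟨s, h0, k⟩ := rel_form hψ (H.of e)
  exact ⟨⟨s, h0⟩, u, v⁻¹, k ▸ eq_mul_inv_of_mul_eq e⟩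

theorem gg_one (hψ : ψ.IsPrimitive) {χ : GL (Fin n) F → ℂ} (hχ : IsIrrCharacter _ χ) :
    classInner (fun u : UT F n => χ u) (lam ψ) = 0 ∨ classInner (fun u : UT F n => χ u) (lam ψ) = 1 := by
  have U : ∀ u : UT F n, sg u.1 ∈ UT F n := fun u i j l => (u.2 _ _ (Fin.rev_le_rev.2 l)).trans (by simp [one_apply, eq_comm])
  refine gelfand (lam ψ) sg (fun a b => Units.ext (by simp [sg, submatrix_mul_equiv])) (Involutive.toPerm (fun u => ⟨_, U u⟩)
    fun u => Subtype.ext (Units.ext (Matrix.ext fun i j => by simp [sg]))) (fun _ => rfl) (fun u => congrArg ψ ?_) (fun g H => ?_) hχ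
  · refine sum_comm.trans ((Equiv.sum_comp Fin.revPerm _).symm.trans (sum_congr rfl fun a _ =>
      (Equiv.sum_comp Fin.revPerm _).symm.trans (sum_congr rfl fun b _ => if_congr ?_ (by simp [sg]) rfl)))
    simp only [Fin.revPerm_apply, Fin.val_rev]; omega
  · obtain ⟨⟨s, h0⟩, u, v, e⟩ := rel_rr hψ g H
    refine ⟨u, v, _, e, Units.ext (Matrix.ext fun i j => ?_)⟩
    change (if j.rev = (ta s i.rev).rev then ex s (st s i.rev) else 0) = if i = (ta s j).rev then ex s (st s j) else 0
    refine if_ctx_congr ⟨fun k => by rw [Fin.rev_injective k, ta_ta h0, Fin.rev_rev], fun k => by rw [k, Fin.rev_rev, ta_ta h0]⟩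
      (fun k => by rw [k, Fin.rev_rev, (ta_same h0 j).1]) fun _ => rfl

theorem gg_sum (hψ : ψ.IsPrimitive) : ∑ χ : IrrCharacter (GL (Fin n) F), classInner (fun u : UT F n => χ.1 u) (lam ψ) =
    Fintype.card {s : Fin n → F // ex s 0 ≠ 0} := by
  rw [← norm_ind (lam ψ) (fun t => rr t.2) (fun t => rr_rel t.2) (rel_rr hψ) fun t t' u v e => Subtype.ext (rr_uniq t.2 t'.2 u v e),
    Char.IsClassFunction.classInner_eq_sum_irr (CharDeep.indFun_isClassFunction _ _)]
  refine sum_congr rfl fun χ _ => ?_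
  rw [← Char.conj_classInner χ.1, CharDeep.classInner_indFun_right _ _ (Char.IsIrrCharacter.isClassFunction χ.2)]
  rcases gg_one hψ χ.2 with e | e <;> simp [e]

end Cfsg.Agent.Cusp
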