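import Cfsg.Agent.Cusp.E
import Mathlib.FieldTheory.Finite.Extension
import Mathlib.FieldTheory.PrimitiveElement

/-! Cuspidal characters of `GL_n(q)`, part F (helper7): counting. The cuspidal characters of `GL_n(q)` are as many as the monic
irreducible polynomials `≠ X` of degree `n` (`card_cu`), hence at least `φ(q^n - 1) / n` (`totient_le`); their degree (`Cu.deg`). -/
set_option autoImplicit false
set_option linter.unusedSectionVars false
open Module Function Finset Matrix Polynomial
open scoped ComplexConjugate BigOperators Classical MatrixGroups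

namespace Cfsg.Agent.Cusp
universe u

/-- multisets of a given weight -/
abbrev MS {α : Type*} (d : α → ℕ) (n : ℕ) := {m : Multiset α // (m.map d).sum = n}

theorem ms_split {α : Type*} (d : α → ℕ) (hd : ∀ a, 0 < d a) {n : ℕ} :
    Nonempty ({a // d a = n} ⊕ MS (fun a : {a // d a < n} => d a) n ≃ MS d n) := by
  refine ⟨Equiv.ofBijective (Sum.elim (fun a => ⟨{a.1}, by simpa using a.2⟩) fun m => ⟨m.1.map Subtype.val, by
    simpa [Multiset.map_map] using m.2⟩) ⟨?_, fun m => ?_⟩⟩
  · have k : ∀ (a : {a // d a = n}) (m : Multiset {a // d a < n}), {a.1} ≠ m.map Subtype.val := fun a m e => by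
      obtain ⟨b, -, e⟩ := Multiset.mem_map.1 (e ▸ Multiset.mem_singleton_self a.1)
      exact b.2.ne (e ▸ a.2)
    rintro (a | a) (b | b) e <;> replace e := congrArg Subtype.val e
    · exact congrArg _ (Subtype.ext (Multiset.singleton_inj.1 e))
    · exact absurd e (k _ _)
    · exact absurd e.symm (k _ _)
    · exact congrArg _ (Subtype.ext (Multiset.map_injective Subtype.val_injective e))
  · obtain ⟨m, hm⟩ := m
    by_cases h : ∀ a ∈ m, d a < n
    · lift m to Multiset {a // d a < n} using h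
      exact ⟨.inr ⟨m, by simpa [Multiset.map_map] using hm⟩, rfl⟩
    · push Not at h
      obtain ⟨a, ha, l⟩ := h
      obtain ⟨m, rfl⟩ := Multiset.exists_cons_of_mem ha
      have e := hm
      rw [Multiset.map_cons, Multiset.sum_cons] at e
      obtain rfl : m = 0 := Multiset.eq_zero_of_forall_notMem fun b hb => by
        have := Multiset.single_le_sum (fun _ _ => Nat.zero_le _) _ (Multiset.mem_map_of_mem d hb)
        have := hd b; omega
      exact ⟨.inl ⟨a, by simpa using e⟩, rfl⟩

theorem ms_count {α β : Type*} (d : α → ℕ) (d' : β → ℕ) (hd : ∀ a, 0 < d a) (hd' : ∀ a, 0 < d' a) (f : ∀ n, Finite (MS d n))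
    (f' : ∀ n, Finite (MS d' n)) (H : ∀ n, Nat.card (MS d n) = Nat.card (MS d' n)) (n : ℕ) :
    Nonempty ({a // d a = n} ≃ {a // d' a = n}) := by
  induction n using Nat.strong_induction_on with | _ n ih => ?_
  obtain ⟨e1⟩ := ms_split d hd (n := n)
  obtain ⟨e2⟩ := ms_split d' hd' (n := n)
  have := Finite.of_equiv _ e1.symm
  have := Finite.of_equiv _ e2.symm
  have := Finite.sum_left (α := {a // d a = n}) (MS (fun a : {a // d a < n} => d a) n)
  have := Finite.sum_left (α := {a // d' a = n}) (MS (fun a : {a // d' a < n} => d' a) n)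
  have := Finite.sum_right (β := MS (fun a : {a // d a < n} => d a) n) {a // d a = n}
  have := Finite.sum_right (β := MS (fun a : {a // d' a < n} => d' a) n) {a // d' a = n}
  have k : ∀ c, Nonempty ({a : {a // d a < n} // d a = c} ≃ {a : {a // d' a < n} // d' a = c}) := fun c => by
    rcases lt_or_ge c n with l | l
    · exact ⟨(Equiv.subtypeSubtypeEquivSubtype (q := (d · = c)) fun h => h ▸ l).trans ((ih c l).some.trans
        (Equiv.subtypeSubtypeEquivSubtype (q := (d' · = c)) fun h => h ▸ l).symm)⟩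
    · have : IsEmpty {a : {a // d a < n} // d a = c} := ⟨fun a => by have := a.1.2; have := a.2; omega⟩
      have : IsEmpty {a : {a // d' a < n} // d' a = c} := ⟨fun a => by have := a.1.2; have := a.2; omega⟩
      exact ⟨Equiv.equivOfIsEmpty _ _⟩
  let e := Equiv.ofFiberEquiv fun c => (k c).some
  have he : ∀ a, d' (e a) = d a := Equiv.ofFiberEquiv_map fun c => (k c).some
  have e3 : MS (fun a : {a // d a < n} => d a) n ≃ MS (fun a : {a // d' a < n} => d' a) n :=
    Equiv.subtypeEquiv ⟨Multiset.map e, Multiset.map e.symm, fun m => by simp, fun m => by simp⟩ fun m => by simp [he]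
  have := H n
  rw [← Nat.card_congr e1, ← Nat.card_congr e2, Nat.card_sum, Nat.card_sum, Nat.card_congr e3, add_left_inj] at this
  exact Finite.card_eq.1 this

variable {F : Type u} [Field F] [Fintype F] {n : ℕ} {ψ : AddChar F ℂ}

variable (F) in
/-- monic irreducible polynomials other than `X` -/
abbrev IP := {p : F[X] // Irreducible p ∧ p.Monic ∧ p.coeff 0 ≠ 0}

theorem ms_ip (n : ℕ) : Nonempty (MS (fun p : IP F => p.1.natDegree) n ≃ {s : Fin n → F // ex s 0 ≠ 0}) := by
  have k : ∀ p : F[X], p.Monic → p.natDegree = n → ex (fun i : Fin n => p.coeff i) 0 = p.coeff 0 := fun p h e => by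
    rw [ex]
    split_ifs with l
    · rfl
    · rw [← h.coeff_natDegree, e, Nat.eq_zero_of_not_pos l]
  have m1 : ∀ m : Multiset (IP F), (m.map Subtype.val).prod.Monic := fun m => monic_multiset_prod_of_monic _ _ fun p _ => p.2.2.1
  have m2 : ∀ m : Multiset (IP F), (m.map Subtype.val).prod.natDegree = (m.map fun p => p.1.natDegree).sum := fun m => by
    rw [natDegree_multiset_prod_of_monic _ (Multiset.forall_mem_map_iff.2 fun p _ => p.2.2.1), Multiset.map_map]; rfl
  have m3 : ∀ m : Multiset (IP F), UniqueFactorizationMonoid.normalizedFactors (m.map Subtype.val).prod = m.map Subtype.val := fun m => by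
    rw [UniqueFactorizationMonoid.normalizedFactors_prod_eq _ (Multiset.forall_mem_map_iff.2 fun p _ => p.2.1), Multiset.map_map]
    exact Multiset.map_congr rfl fun p _ => p.2.2.1.normalize_eq_self
  refine ⟨Equiv.ofBijective (fun m => ⟨fun i => (m.1.map Subtype.val).prod.coeff i, ?_⟩) ⟨fun a b e => ?_, fun s => ?_⟩⟩
  · rw [k _ (m1 _) ((m2 _).trans m.2), coeff_zero_multiset_prod]
    refine Multiset.prod_ne_zero fun h => ?_
    rw [Multiset.map_map] at h
    obtain ⟨p, -, h⟩ := Multiset.mem_map.1 h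
    exact p.2.2.2 h
  · refine Subtype.ext (Multiset.map_injective Subtype.val_injective ?_)
    rw [← m3, ← m3 b.1]
    refine congrArg _ (Polynomial.ext fun i => ?_)
    have a1 := (m2 _).trans a.2
    have b1 := (m2 _).trans b.2
    rcases lt_trichotomy i n with l | rfl | l
    · exact congrFun (congrArg Subtype.val e) ⟨i, l⟩
    · exact (a1 ▸ (m1 a.1).coeff_natDegree :).trans (b1 ▸ (m1 b.1).coeff_natDegree :).symm
    · rw [coeff_eq_zero_of_natDegree_lt (a1.trans_lt l), coeff_eq_zero_of_natDegree_lt (b1.trans_lt l)]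
  · let p : F[X] := X ^ n + ∑ i : Fin n, C (s.1 i) * X ^ i.val
    have p1 : p.Monic := monic_X_pow_add (degree_sum_fin_lt _)
    have p2 : p.natDegree = n := natDegree_eq_of_degree_eq_some
      ((degree_add_eq_left_of_degree_lt ((degree_sum_fin_lt _).trans_eq (degree_X_pow n).symm)).trans (degree_X_pow n))
    have p3 : (fun i : Fin n => p.coeff i) = s.1 := funext fun i => by
      simp [p, coeff_X_pow, i.2.ne, finset_sum_coeff, Fin.val_inj]
    have p4 : p.coeff 0 ≠ 0 := by rw [← k p p1 p2, p3]; exact s.2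
    have p5 : ∀ q ∈ UniqueFactorizationMonoid.normalizedFactors p, Irreducible q ∧ q.Monic ∧ q.coeff 0 ≠ 0 := fun q hq => by
      obtain ⟨h1, h2, r, h3⟩ := (Polynomial.mem_normalizedFactors_iff p1.ne_zero).1 hq
      exact ⟨h1, h2, left_ne_zero_of_mul (by rwa [h3, mul_coeff_zero] at p4)⟩
    obtain ⟨m, hm⟩ : ∃ m : Multiset (IP F), m.map Subtype.val = _ := CanLift.prf _ p5
    have p6 : (m.map Subtype.val).prod = p := eq_of_monic_of_associated (m1 m) p1
      (hm ▸ UniqueFactorizationMonoid.prod_normalizedFactors p1.ne_zero)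
    exact ⟨⟨m, by rw [← m2, p6, p2]⟩, Subtype.ext (by simpa only [p6] using p3)⟩

theorem totient_le_ip (hn : 0 < n) [Finite {p : IP F // p.1.natDegree = n}] :
    Nat.totient (Fintype.card F ^ n - 1) / n ≤ Nat.card {p : IP F // p.1.natDegree = n} := by
  obtain ⟨p, hp⟩ := CharP.exists F
  have := Fact.mk (CharP.char_is_prime F p)
  have := NeZero.of_pos hn
  let K := FiniteField.Extension F p n
  have := Fintype.ofFinite Kˣ
  have := Fintype.ofFinite {p : IP F // p.1.natDegree = n}
  have c : Fintype.card F ^ n - 1 = Fintype.card Kˣ := by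
    rw [← Nat.card_eq_fintype_card (α := Kˣ), Nat.card_units, FiniteField.natCard_extension, Nat.card_eq_fintype_card]
  rw [c, ← IsCyclic.card_orderOf_eq_totient dvd_rfl, Nat.card_eq_fintype_card]
  refine Nat.div_le_of_le_mul ?_
  rw [← card_univ (α := {p : IP F // p.1.natDegree = n}), ← card_map ⟨fun p => p.1.1, fun a b e => Subtype.ext (Subtype.ext e)⟩]
  refine card_le_mul_card_image_of_maps_to (f := fun x : Kˣ => minpoly F x.1) (fun x hx => ?_) n fun q hq => ?_
  · have i := IsIntegral.of_finite F x.1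
    refine mem_map.2 ⟨⟨⟨_, minpoly.irreducible i, minpoly.monic i, minpoly.coeff_zero_ne_zero i x.ne_zero⟩, ?_⟩, mem_univ _, rfl⟩
    refine ((Field.primitive_element_iff_minpoly_natDegree_eq F x.1).1 (top_le_iff.1 fun y _ => ?_)).trans
      (FiniteField.finrank_extension ..)
    rcases eq_or_ne y 0 with rfl | h
    · exact zero_mem _
    · have : Subgroup.zpowers x = ⊤ := Subgroup.eq_top_of_card_eq _ (by
        rw [Nat.card_zpowers, (mem_filter.1 hx).2, Nat.card_eq_fintype_card])
      obtain ⟨k, hk⟩ := this.ge (Subgroup.mem_top (Units.mk0 y h))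
      rw [show y = x.1 ^ k by simpa using (congrArg Units.val hk).symm]
      exact zpow_mem (IntermediateField.mem_adjoin_simple_self F _) k
  · obtain ⟨r, -, rfl⟩ := mem_map.1 hq
    refine (card_le_card_of_injOn (t := (r.1.1.aroots K).toFinset) Units.val (fun x hx => ?_) Units.val_injective.injOn).trans
      ((Multiset.toFinset_card_le _).trans ((card_roots' _).trans (natDegree_map_le.trans r.2.le)))
    have e : minpoly F x.1 = r.1.1 := (mem_filter.1 hx).2
    simpa [r.1.2.2.1.ne_zero] using e ▸ minpoly.aeval F x.1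

/-- irreducible characters in matrix form -/
noncomputable def irrE : IrrCharacter (GG F n) ≃ IrrCharacter (GL (Fin n) F) where
  toFun χ := ⟨_, Char.IsIrrCharacter.comp_equiv χ.2 tl⟩
  invFun χ := ⟨_, Char.IsIrrCharacter.comp_equiv χ.2 tl.symm⟩
  left_inv χ := Subtype.ext (funext fun x => congrArg χ.1 (tl.apply_symm_apply x))
  right_inv χ := Subtype.ext (funext fun x => congrArg χ.1 (tl.symm_apply_apply x))

theorem wh_ofCh (χ : IrrCharacter (GG F n)) : wh (ofCh χ) n ψ = classInner (fun u : UT F n => (irrE χ).1 u) (lam ψ) := by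
  rw [classInner, Nat.card_eq_fintype_card, ← div_eq_inv_mul, ← Fintype.expect_eq_sum_div_card]
  exact expect_congr rfl fun u _ => by rw [ofCh_val]; rfl

theorem wh_sum (f : CF F) : wh f n ψ = ∑ χ : IrrCharacter (GG F n), ip (S F n) f (ofCh χ) * wh (ofCh χ) n ψ := by
  simp only [wh, mul_expect, ← expect_sum_comm, ← mul_assoc, ← sum_mul, ofCh_val, ← val_sum]

variable (hψ : ψ.IsPrimitive)
include hψ

theorem wh_01 (χ : IrrCharacter (GG F n)) : wh (ofCh χ) n ψ = 0 ∨ wh (ofCh χ) n ψ = 1 := by
  rw [wh_ofCh]; exact gg_one hψ (irrE χ).2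

theorem wh_cu (ρ : Cu F) : wh ρ.cf ρ.d ψ = 1 := (wh_01 hψ ρ.1.2).resolve_left fun e =>
  Char.IsIrrCharacter.apply_one_ne_zero ρ.1.2.2 ((ofCh_val ρ.1.2 1).symm.trans ((deg_sc hψ ρ.2.2 ρ.2.1).trans (mul_eq_zero_of_left e _)))

theorem wh_R : ∀ l : List (Cu F), wh (R l) (dg l) ψ = 1
  | [] => by
    have : ∀ u : UT F 0, u = 1 := fun u => Subtype.ext (Units.ext (Subsingleton.elim _ _))
    change wh _ 0 ψ = 1
    simp [wh, R, cst, this]
  | ρ :: l => by rw [show dg (ρ :: l) = dg l + ρ.d from add_comm .., R, wh_mul hψ ρ.hom, wh_R l, wh_cu hψ, one_mul]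

theorem ms_cu (n : ℕ) : Finite (MS (Cu.d (F := F)) n) ∧ Nat.card (MS (Cu.d (F := F)) n) = Nat.card {s : Fin n → F // ex s 0 ≠ 0} := by
  have w := wh_01 (n := n) hψ
  have k : ∀ l : List (Cu F), dg l = n → ∃! χ : {χ : IrrCharacter (GG F n) // wh (ofCh χ) n ψ = 1}, ip (S F n) (R l) (ofCh χ.1) ≠ 0 := by
    intro l hl
    choose a ha using fun χ : IrrCharacter (GG F n) => (R_ch l).nat (V := S F n) (ofCh_ch χ)
    have e := wh_sum (ψ := ψ) (n := n) (R l)
    rw [(hl ▸ wh_R hψ l :), ← sum_filter_of_ne (p := fun χ => wh (ofCh χ) n ψ = 1) fun χ _ h => (w χ).resolve_left (right_ne_zero_of_mul h),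
      sum_subtype (p := fun χ => wh (ofCh χ) n ψ = 1) _ (by simp), sum_congr rfl fun χ _ => by rw [χ.2, mul_one, ha], ← Nat.cast_sum,
      eq_comm, Nat.cast_eq_one] at e
    obtain ⟨χ, -, h⟩ := exists_ne_zero_of_sum_ne_zero (e.trans_ne one_ne_zero)
    simp only [ha, Nat.cast_ne_zero]
    refine ⟨χ, h, fun χ' h' => by_contra fun m => ?_⟩
    have := add_le_sum (f := fun χ : {χ : IrrCharacter (GG F n) // wh (ofCh χ) n ψ = 1} => a χ.1) (fun _ _ => Nat.zero_le _)
      (mem_univ χ') (mem_univ χ) m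
    omega
  have d : ∀ m : MS (Cu.d (F := F)) n, dg m.1.toList = n := fun m => by rw [dg, ← Multiset.sum_coe, ← Multiset.map_coe, Multiset.coe_toList, m.2]
  have b : Bijective fun m => (k _ (d m)).choose := ⟨fun a b e => ?_, fun χ => ?_⟩
  · refine ⟨Finite.of_injective _ b.1, ?_⟩
    rw [Nat.card_eq_of_bijective _ b, Nat.card_eq_fintype_card, Nat.card_eq_fintype_card, ← Nat.cast_inj (R := ℂ), ← gg_sum hψ,
      ← irrE.sum_comp, Fintype.card_subtype, card_filter, Nat.cast_sum]
    exact sum_congr rfl fun χ _ => by rw [← wh_ofCh]; rcases w χ with e | e <;> simp [e]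
  · have h1 := (k _ (d a)).choose_spec.1
    have h2 := (k _ (d b)).choose_spec.1
    beta_reduce at e h1 h2
    rw [← e, ← ip_conj, _root_.map_ne_zero] at h2
    have := ne_zero_of_sum (a := fun χ => ip (S F n) (R a.1.toList) (ofCh χ)) (b := fun χ => ip (S F n) (ofCh χ) (R b.1.toList))
      (fun _ => (R_ch _).nat (ofCh_ch _)) (fun _ => (ofCh_ch _).nat (R_ch _)) h1 h2
    rw [← ip_sum, ip_R] at this
    exact Subtype.ext (a.1.coe_toList.symm.trans ((Multiset.coe_eq_coe.2 (ite_ne_right_iff.1 this).1.2).trans b.1.coe_toList))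
  · obtain ⟨l, hl, h⟩ := exists_series n χ.1
    refine ⟨⟨l, by simpa [dg] using hl⟩, ((k _ (d _)).choose_spec.2 χ ?_).symm⟩
    refine (expect_congr rfl fun x _ => ?_).trans_ne h
    rw [R_perm (Multiset.coe_eq_coe.1 (Multiset.coe_toList _))]

theorem totient_le (hn : 0 < n) : Nat.totient (Fintype.card F ^ n - 1) / n ≤ Nat.card {ρ : Cu F // ρ.d = n} := by
  have f := fun n => Finite.of_equiv _ (ms_ip (F := F) n).some.symm
  have hd : ∀ p : IP F, 0 < p.1.natDegree := fun p => p.2.1.natDegree_pos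
  have := Finite.of_equiv _ (ms_split _ hd (n := n)).some.symm
  have := Finite.sum_left (α := {p : IP F // p.1.natDegree = n}) (MS (fun a : {p : IP F // p.1.natDegree < n} => a.1.1.natDegree) n)
  rw [Nat.card_congr (ms_count Cu.d (fun p : IP F => p.1.natDegree) (fun ρ => ρ.2.1) hd (fun n => (ms_cu hψ n).1) f
    (fun n => (ms_cu hψ n).2.trans (Nat.card_congr (ms_ip n).some).symm) n).some]
  exact totient_le_ip hn

theorem Cu.deg (ρ : Cu F) : (irrE ρ.1.2).1 1 = ∏ i ∈ Ico 1 ρ.d, ((Fintype.card F : ℂ) ^ i - 1) :=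
  (congrArg ρ.1.2.1 (map_one tl)).trans ((ofCh_val ρ.1.2 1).symm.trans ((deg_sc hψ ρ.2.2 ρ.2.1).trans
    ((congrArg (· * _) (wh_cu hψ ρ)).trans (one_mul _))))

omit hψ in
theorem sc_sum {χ : IrrCharacter (GG F n)} (h : SC (ofCh χ)) {m : ℕ} (h0 : 0 < m) (h1 : m < n) :
    (∑ g : GL (Fin n) F, if (∀ i j : Fin n, ¬ (i.val < m ∧ m ≤ j.val) → g.1 i j = (1 : Matrix (Fin n) (Fin n) F) i j)
      then (irrE χ).1 g else 0) = 0 := by
  have r := rk_VV (F := F) h1.le
  refine (sum_of_injOn (fun t : Nil (VV F n m) => tl.symm (nu t)) (fun a _ b _ e => Subtype.ext (add_left_cancel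
    (congrArg Units.val (tl.symm.injective e)))) (fun _ _ => mem_univ _) (fun g _ k => if_neg fun c => k ?_) fun t _ => ?_).symm.trans
    (h _ (VV F n m) (fun k => by rw [k, finrank_bot] at r; omega) (fun k => by rw [k, finrank_top, finrank_fin_fun] at r; omega) 1 isUnit_one)
  · have c' : ∀ i j : Fin n, ¬ (i.val < m ∧ m ≤ j.val) → (g.1 - 1) i j = 0 := fun i j l => sub_eq_zero.2 (c i j l)
    refine ⟨⟨toLin' (g.1 - 1), fun v i l => ?_, fun v hv => funext fun i => ?_⟩, mem_univ _, tl.symm_apply_eq.2 (Units.ext ?_)⟩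
    · exact show ∑ j, _ * v j = 0 from sum_eq_zero fun j _ => mul_eq_zero_of_left (c' i j (by omega)) _
    · refine show ∑ j, _ * v j = 0 from sum_eq_zero fun j _ => ?_
      rcases lt_or_ge j.val m with l | l
      exacts [mul_eq_zero_of_left (c' i j (by omega)) _, mul_eq_zero_of_right _ (hv j l)]
    · simp [nu, uni, tl_val, End.one_eq_id]
  · rw [if_pos fun i j l => ?_, one_mul]
    · exact (ofCh_val χ (nu t)).trans (congrArg χ.1 (tl.apply_symm_apply _).symm)
    · change LinearMap.toMatrix' (1 + t.1) i j = _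
      rw [map_add, LinearMap.toMatrix'_one, Matrix.add_apply, add_eq_left, LinearMap.toMatrix'_apply]
      rcases lt_or_ge i.val m with k | k
      · exact congrFun (t.2.2 _ fun c k' => Pi.single_eq_of_ne (by rintro rfl; omega) _) i
      · exact t.2.1 _ i k

end Cfsg.Agent.Cusp
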